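import Cfsg.Agent.J4Type67.Setup

/-!
A Sylow 2-subgroup of the involution centraliser has exactly one elementary abelian subgroup of
order `2 ^ 11`.
-/

set_option autoImplicit false

namespace CfsgLib.J4Type67

open scoped Pointwise

universe u

namespace Setup

variable {H : Type u} [Group H] [Finite H] (d : Setup H)

/-- The elements of `M22` realised by a subgroup. -/
def innPre (L : Subgroup H) : Subgroup M := (L.map d.π).comap (MulAut.conj : M →* MulAut M)

theorem mem_innPre {L : Subgroup H} {a : M} :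
    a ∈ d.innPre L ↔ ∃ t ∈ L, d.π t = MulAut.conj a :=
  Subgroup.mem_map

theorem E_le_sylow (T : Sylow 2 H) : d.E ≤ (T : Subgroup H) := by
  haveI : d.E.Normal := ⟨fun x hx g => d.normalE g x hx⟩
  obtain ⟨P, hP⟩ := d.pgroupE.exists_le_sylow
  obtain ⟨g, rfl⟩ := MulAction.exists_smul_eq H P T
  intro x hx
  rw [Sylow.coe_subgroup_smul, Subgroup.mem_pointwise_smul_iff_inv_smul_mem]
  exact hP (by simpa using d.normalE g⁻¹ x hx)

theorem ker_inf_sylow (T : Sylow 2 H) {x : H} (hx : x ∈ (T : Subgroup H)) (hk : x ∈ d.π.ker) :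
    x ∈ d.E := by
  obtain ⟨i, hi⟩ := d.ker_decomp hk
  have hpi : d.p ^ i ∈ (T : Subgroup H) := by
    have := mul_mem (inv_mem hx) (d.E_le_sylow T hi)
    rwa [inv_mul_cancel_left] at this
  obtain ⟨k, hk'⟩ := T.isPGroup' ⟨_, hpi⟩
  have h2 : orderOf (d.p ^ i) ∣ 2 ^ k := orderOf_dvd_of_pow_eq_one (congrArg Subtype.val hk')
  have h3 : orderOf (d.p ^ i) ∣ 3 := orderOf_dvd_of_pow_eq_one (by
    rw [← zpow_natCast, ← zpow_mul, mul_comm, zpow_mul, zpow_natCast, d.p3, one_zpow])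
  have h1 : orderOf (d.p ^ i) ∣ Nat.gcd (2 ^ k) 3 := Nat.dvd_gcd h2 h3
  rw [Nat.Coprime.gcd_eq_one (Nat.Coprime.pow_left k (by norm_num)), Nat.dvd_one,
    orderOf_eq_one_iff] at h1
  simpa [h1] using hi

theorem card_mulAut : Nat.card (MulAut M) = 887040 := by
  have h := Subgroup.card_mul_index (MulAut.conj : M →* MulAut M).range
  rw [inn_index, ← Nat.card_congr (MonoidHom.ofInjective conj_injective_M).toEquiv,
    CfsgLib.Mathieu.card_M22] at h
  rw [← h]

theorem innPre_eq_sylow (T : Sylow 2 H) : ∃ S : Sylow 2 M, d.innPre T = (S : Subgroup M) := by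
  have hp : IsPGroup 2 ↥(d.innPre T) :=
    (T.isPGroup'.map d.π).comap_of_injective _ conj_injective_M
  obtain ⟨S, hS⟩ := hp.exists_le_sylow
  refine ⟨S, Subgroup.eq_of_le_of_card_ge hS ?_⟩
  have hfS : (443520 : ℕ).factorization 2 = 7 := by
    rw [show (443520 : ℕ) = 2 ^ 7 * 3465 by norm_num,
      Nat.factorization_mul (by norm_num) (by norm_num), Nat.Prime.factorization_pow Nat.prime_two]
    simp [Nat.factorization_eq_zero_of_not_dvd (by norm_num : ¬(2 ∣ 3465))]
  have hfA : (887040 : ℕ).factorization 2 = 8 := by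
    rw [show (887040 : ℕ) = 2 ^ 8 * 3465 by norm_num,
      Nat.factorization_mul (by norm_num) (by norm_num), Nat.Prime.factorization_pow Nat.prime_two]
    simp [Nat.factorization_eq_zero_of_not_dvd (by norm_num : ¬(2 ∣ 3465))]
  have hT := Sylow.card_eq_multiplicity (T.mapSurjective d.surj)
  rw [card_mulAut, hfA] at hT
  have h2 := card_le_two_mul _ (le_of_eq inn_index) (by rw [inn_index]; norm_num)
    ((T : Subgroup H).map d.π)
  have hmap : (d.innPre T).map (MulAut.conj : M →* MulAut M) =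
      (T : Subgroup H).map d.π ⊓ (MulAut.conj : M →* MulAut M).range := by
    rw [innPre, Subgroup.map_comap_eq, inf_comm]
  have hc : Nat.card ((T : Subgroup H).map d.π) = 256 := by
    rw [show (256 : ℕ) = 2 ^ 8 by norm_num, ← hT]; rfl
  rw [hc, ← hmap, Subgroup.card_map_of_injective conj_injective_M] at h2
  rw [Sylow.card_eq_multiplicity S, CfsgLib.Mathieu.card_M22, hfS]
  omega

theorem sigma_eq {h : H} {c : d.C} {a : M} (hh : d.π h = MulAut.conj a)
    (hk : h * (c : H)⁻¹ ∈ d.π.ker) : d.sigma c = a := by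
  apply conj_injective_M
  rw [d.conj_sigma, ← hh]
  rw [MonoidHom.mem_ker, map_mul, map_inv, mul_inv_eq_one] at hk
  exact hk.symm

/-- A 2-element over an involution of `M22` is a product of an element of the extraspecial group
and a lift. -/
theorem decomp (T : Sylow 2 H) {t : H} (ht : t ∈ (T : Subgroup H)) {a : M}
    (hπ : d.π t = MulAut.conj a) (ha : a * a = 1) :
    ∃ c : d.C, (c : H) ∈ (T : Subgroup H) ∧ t * (c : H)⁻¹ ∈ d.E ∧ d.sigma c = a ∧
      (QuotientGroup.mk c : d.X) * QuotientGroup.mk c = 1 := by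
  have hmem : d.π t ∈ d.C.map d.π := by rw [d.map_C, hπ]; exact ⟨a, rfl⟩
  obtain ⟨c₀, hc₀, hc⟩ := hmem
  obtain ⟨i, hi⟩ := d.ker_decomp (n := t * c₀⁻¹) (by
    rw [MonoidHom.mem_ker, map_mul, map_inv, hc, mul_inv_cancel])
  let c : d.C := ⟨(d.p ^ i)⁻¹ * c₀,
    mul_mem (inv_mem (zpow_mem (d.mem_C.2 (Commute.refl _)) i)) hc₀⟩
  have hte : t * (c : H)⁻¹ ∈ d.E := by
    show t * ((d.p ^ i)⁻¹ * c₀)⁻¹ ∈ d.E
    rwa [mul_inv_rev, inv_inv, ← mul_assoc]
  have hcT : (c : H) ∈ (T : Subgroup H) := by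
    have := mul_mem (inv_mem (d.E_le_sylow T hte)) ht
    simpa [mul_assoc] using this
  refine ⟨c, hcT, hte, d.sigma_eq hπ (d.E_le hte), ?_⟩
  rw [← QuotientGroup.mk_mul, QuotientGroup.eq_one_iff]
  show ((c * c : d.C) : H) ∈ d.Z
  refine d.mem_Z_of_C (d.ker_inf_sylow T (mul_mem hcT hcT) ?_) (c * c).2
  rw [MonoidHom.mem_ker, Subgroup.coe_mul, map_mul, ← d.conj_sigma,
    d.sigma_eq hπ (d.E_le hte), ← map_mul, ha, map_one]

theorem act_decomp {t : H} {c : d.C} (hte : t * (c : H)⁻¹ ∈ d.E) (w : d.W) :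
    d.actH t w = d.rep.act (QuotientGroup.mk c) w := by
  have h : d.actH (t * (c : H)⁻¹) = 1 := by
    refine MulEquiv.ext fun v => ?_
    obtain ⟨a, ha, rfl⟩ := d.q_surj v
    exact (d.conj_mem_Z ha).2 (d.commE' hte ha)
  show d.actH t w = d.actH (c : H) w
  rw [map_mul, map_inv, mul_inv_eq_one] at h
  rw [h]

/-- The preimage of a subgroup of the module. -/
def pre (F : Subgroup d.W) : Subgroup H :=
  (F.comap (QuotientGroup.mk' (d.Z.subgroupOf d.E))).map d.E.subtype

theorem mem_pre {F : Subgroup d.W} {x : H} : x ∈ d.pre F ↔ ∃ hx : x ∈ d.E, d.q x hx ∈ F := by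
  constructor
  · rintro ⟨e, he, rfl⟩; exact ⟨e.2, he⟩
  · rintro ⟨hx, h⟩; exact ⟨⟨x, hx⟩, h, rfl⟩

/-- The image of a subgroup in the module. -/
def img (D : Subgroup H) : Subgroup d.W :=
  (D.subgroupOf d.E).map (QuotientGroup.mk' (d.Z.subgroupOf d.E))

theorem mem_img {D : Subgroup H} {w : d.W} :
    w ∈ d.img D ↔ ∃ x, ∃ hx : x ∈ d.E, x ∈ D ∧ d.q x hx = w := by
  constructor
  · rintro ⟨e, he, rfl⟩; exact ⟨e.1, e.2, he, rfl⟩
  · rintro ⟨x, hx, h, rfl⟩; exact ⟨⟨x, hx⟩, h, rfl⟩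

theorem card_pre (F : Subgroup d.W) : Nat.card (d.pre F) = 2 * Nat.card F := by
  rw [pre, Subgroup.card_map_of_injective d.E.subtype_injective]
  have h := Nat.card_congr (QuotientGroup.preimageMkEquivSubgroupProdSet
    (d.Z.subgroupOf d.E) (F : Set d.W))
  rw [Nat.card_prod, Nat.card_congr (Subgroup.subgroupOfEquivOfLe d.Z_le_E).toEquiv, d.card_Z] at h
  exact h

theorem card_le_img {D : Subgroup H} (hD : D ≤ d.E) : Nat.card D ≤ 2 * Nat.card (d.img D) := by
  rw [← d.card_pre]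
  exact Subgroup.card_le_of_le fun x hx =>
    d.mem_pre.2 ⟨hD hx, d.mem_img.2 ⟨x, hD hx, hx, rfl⟩⟩

/-- The product of the sizes of a subgroup and its centraliser in the extraspecial group. -/
theorem card_centralizer_eq {U : Subgroup H} (hU : U ≤ d.E) (hz : d.z ∈ U) :
    Nat.card U * Nat.card ↥(d.E ⊓ Subgroup.centralizer (U : Set H)) = 2 ^ 14 := by
  have hZ1 : U ⊓ Subgroup.centralizer (d.E : Set H) = d.Z := by
    refine le_antisymm (d.cent_inf_le fun x hx => hx.2) (Subgroup.zpowers_le.2 ⟨hz, ?_⟩)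
    exact Subgroup.mem_centralizer_iff.2 fun y _ => (d.zc y).eq.symm
  have hZ2 : d.E ⊓ Subgroup.centralizer (d.E : Set H) = d.Z := by
    refine le_antisymm (d.cent_inf_le fun x hx => hx.2) (Subgroup.zpowers_le.2 ⟨d.zmem, ?_⟩)
    exact Subgroup.mem_centralizer_iff.2 fun y _ => (d.zc y).eq.symm
  have b1 := pairing_bound (z := d.z) (U := U) (T := d.E) fun u hu t ht => d.commE u (hU hu) t ht
  have b2 := pairing_bound (z := d.z) (U := d.E) (T := U) fun u hu t ht => d.commE u hu t (hU ht)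
  rw [hZ1, d.card_Z, d.cardE] at b1
  rw [hZ1, d.card_Z, d.cardE] at b2
  refine le_antisymm (b1.trans (by norm_num)) ?_
  rw [mul_comm (Nat.card U)]
  exact le_trans (by norm_num) b2

theorem card_le_of_commute {D : Subgroup H} (hD : D ≤ d.E)
    (hc : ∀ a ∈ D, ∀ b ∈ D, a * b = b * a) : Nat.card D ≤ 128 := by
  set D' := D ⊔ d.Z
  have hD' : D' ≤ d.E := sup_le hD d.Z_le_E
  have h := d.card_centralizer_eq hD' (Subgroup.mem_sup_right (Subgroup.mem_zpowers _))
  have hle : D' ≤ d.E ⊓ Subgroup.centralizer (D' : Set H) := by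
    refine le_inf hD' ?_
    have h1 : D' ≤ Subgroup.centralizer (D : Set H) := sup_le
      (fun a ha => Subgroup.mem_centralizer_iff.2 fun b hb => hc b hb a ha)
      (Subgroup.zpowers_le.2 (Subgroup.mem_centralizer_iff.2 fun b _ => (d.zc b).eq.symm))
    rw [Subgroup.le_centralizer_iff]
    refine sup_le (Subgroup.le_centralizer_iff.1 h1) ?_
    exact Subgroup.zpowers_le.2 (Subgroup.mem_centralizer_iff.2 fun b _ => (d.zc b).eq.symm)
  have h2 := Subgroup.card_le_of_le hle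
  have h3 : Nat.card D' * Nat.card D' ≤ 128 * 128 := by
    calc Nat.card D' * Nat.card D' ≤ Nat.card D' * _ := Nat.mul_le_mul_left _ h2
      _ = 2 ^ 14 := h
      _ = 128 * 128 := by norm_num
  exact (Subgroup.card_le_of_le le_sup_left).trans (Nat.mul_self_le_mul_self_iff.1 h3)

theorem mem_duad_ne {g : M} : Nat.card (d.rep.F (conjS g duad)) ≠ 64 := by
  rw [d.rep.card_F_conj]; exact d.rep.card_F_duad

theorem card_F_big {g : M} {A : Subgroup M} (h : A = conjS g hex ∨ A = conjS g duad) :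
    Nat.card (d.rep.F A) ≤ 64 := by
  rcases h with rfl | rfl
  · rw [d.rep.card_F_conj, d.rep.card_F_hex]
  · obtain ⟨g', hg'⟩ := duad_gen
    rw [d.rep.card_F_conj]
    exact d.rep.card_F_le sq_duad hg'

/-- An elementary abelian subgroup of order `2 ^ 11` meets the extraspecial group in a subgroup
of order `2 ^ 7` and induces a hexad subgroup. -/
theorem shape (T : Sylow 2 H) {g : M}
    (hcases : ∀ A : Subgroup M, (∀ a ∈ A, a * a = 1) → 16 ≤ Nat.card A → A ≤ d.innPre T →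
      A = conjS g hex ∨ A = conjS g duad)
    {V : Subgroup H} (hVT : V ≤ (T : Subgroup H)) (hVc : ∀ a ∈ V, ∀ b ∈ V, a * b = b * a)
    (hVs : ∀ a ∈ V, a * a = 1) (hV : Nat.card V = 2 ^ 11) :
    (∀ v ∈ V, d.π v ∈ (conjS g hex).map (MulAut.conj : M →* MulAut M)) ∧
      V ⊓ d.E = d.pre (d.rep.F (conjS g hex)) := by
  set D := V ⊓ d.E
  have hD128 : Nat.card D ≤ 128 :=
    d.card_le_of_commute inf_le_right fun a ha b hb => hVc a ha.1 b hb.1
  set VI := V ⊓ (MulAut.conj : M →* MulAut M).range.comap d.π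
  set A₀ := d.innPre VI
  have hA₀T : A₀ ≤ d.innPre T := Subgroup.comap_mono (Subgroup.map_mono (inf_le_left.trans hVT))
  have hA₀sq : ∀ a ∈ A₀, a * a = 1 := by
    intro a ha
    obtain ⟨t, ht, hta⟩ := d.mem_innPre.1 ha
    apply conj_injective_M
    rw [map_mul, ← hta, ← map_mul, hVs t ht.1, map_one, map_one]
  have hcardVI : Nat.card VI = Nat.card A₀ * Nat.card D := by
    let f : VI →* MulAut M := d.π.comp VI.subtype
    have h := Subgroup.card_mul_index f.ker
    rw [Subgroup.index_ker] at h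
    have hr : f.range = A₀.map (MulAut.conj : M →* MulAut M) := by
      ext φ
      constructor
      · rintro ⟨v, rfl⟩
        obtain ⟨a, ha⟩ := v.2.2
        exact ⟨a, d.mem_innPre.2 ⟨v, v.2, ha.symm⟩, ha⟩
      · rintro ⟨a, ha, rfl⟩
        obtain ⟨t, ht, hta⟩ := d.mem_innPre.1 ha
        exact ⟨⟨t, ht⟩, hta⟩
    have hk : Nat.card f.ker = Nat.card D := Nat.card_congr
      { toFun := fun v => ⟨v.1.1, v.1.2.1, d.ker_inf_sylow T (hVT v.1.2.1) v.2⟩
        invFun := fun x => ⟨⟨x.1, x.2.1, show d.π x.1 ∈ (MulAut.conj : M →* MulAut M).range by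
          rw [(MonoidHom.mem_ker).1 (d.E_le x.2.2)]; exact one_mem _⟩, d.E_le x.2.2⟩
        left_inv := fun _ => rfl
        right_inv := fun _ => rfl }
    rw [← h, hr, hk, Subgroup.card_map_of_injective conj_injective_M, mul_comm]
  have himg : d.img D ≤ d.rep.F A₀ := by
    intro w hw x hx
    obtain ⟨a, ha, haD, rfl⟩ := d.mem_img.1 hw
    obtain ⟨hx1, hx2⟩ := hx
    obtain ⟨t, ht, hta⟩ := d.mem_innPre.1 hx1
    obtain ⟨c, -, hte, hσ, hcc⟩ := d.decomp T (hVT ht.1) hta (hA₀sq _ hx1)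
    rw [show x = QuotientGroup.mk c from d.rep.lift_two_unique (by exact hσ.symm) hx2 hcc,
      ← d.act_decomp hte]
    rw [d.conj_mem_Z ha, hVc t ht.1 a haD.1]
    simp
  have hDimg := d.card_le_img (D := D) inf_le_right
  have hFimg := Subgroup.card_le_of_le himg
  by_cases hall : VI = V
  · rw [hall, hV] at hcardVI
    have h16 : 16 ≤ Nat.card A₀ := by
      by_contra h
      have := Nat.mul_le_mul (Nat.le_of_lt_succ (Nat.lt_of_not_le h)) hD128
      omega
    have hc := hcases A₀ hA₀sq h16 hA₀T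
    have hA16 : Nat.card A₀ = 16 := by
      rcases hc with h | h <;> rw [h, card_conjS]
      exacts [card_hex, card_duad]
    rw [hA16] at hcardVI
    have hF := d.card_F_big hc
    have hA : A₀ = conjS g hex := by
      rcases hc with h | h
      · exact h
      · exfalso
        refine d.mem_duad_ne (g := g) ?_
        rw [← h]; omega
    constructor
    · intro v hv
      rw [← hA]
      have hv' : v ∈ VI := hall.symm ▸ hv
      obtain ⟨a, ha⟩ := hv'.2
      exact ⟨a, d.mem_innPre.2 ⟨v, hv', ha.symm⟩, ha⟩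
    · rw [← hA]
      refine Subgroup.eq_of_le_of_card_ge (fun x hx => ?_) ?_
      · exact d.mem_pre.2 ⟨hx.2, himg (d.mem_img.2 ⟨x, hx.2, hx, rfl⟩)⟩
      · rw [d.card_pre]; omega
  · exfalso
    obtain ⟨τ, hτV, hτI⟩ := SetLike.exists_of_lt (lt_of_le_of_ne inf_le_left hall : VI < V)
    replace hτI : d.π τ ∉ (MulAut.conj : M →* MulAut M).range := fun h => hτI ⟨hτV, h⟩
    have hidx : ((MulAut.conj : M →* MulAut M).range.comap d.π).index = 2 := by
      rw [Subgroup.index_comap_of_surjective _ d.surj]; exact inn_index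
    have h2 : Nat.card V ≤ 2 * Nat.card VI :=
      card_le_two_mul _ (le_of_eq hidx) (by omega) V
    rw [hV] at h2
    -- the outer element inverts the central element on the module
    obtain ⟨a, ha, hπa⟩ := d.exists_normalizer τ
    have hainv : a * d.p * a⁻¹ = d.p⁻¹ := by
      refine (d.conj_p ha).resolve_left fun e => hτI ?_
      rw [← hπa, ← d.map_C]
      exact ⟨a, d.mem_C.2 (mul_inv_eq_iff_eq_mul.1 e), rfl⟩
    obtain ⟨i, hi⟩ := d.ker_decomp (n := τ * a⁻¹) (by
      rw [MonoidHom.mem_ker, map_mul, map_inv, hπa, mul_inv_cancel])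
    have hEact : ∀ e ∈ d.E, d.actH e = 1 := fun e he => MulEquiv.ext fun w => by
      obtain ⟨b, hb, rfl⟩ := d.q_surj w
      exact (d.conj_mem_Z hb).2 (d.commE' he hb)
    have hrel : d.actH τ * d.actH d.p * (d.actH τ)⁻¹ = (d.actH d.p)⁻¹ := by
      have hτ : τ = (τ * a⁻¹ * d.p ^ i) * ((d.p ^ i)⁻¹ * a) := by group
      have hτ' : d.actH τ = (d.actH d.p ^ i)⁻¹ * d.actH a := by
        conv_lhs => rw [hτ]
        rw [map_mul, hEact _ hi, one_mul, map_mul, map_inv, map_zpow]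
      have hai : d.actH a * d.actH d.p * (d.actH a)⁻¹ = (d.actH d.p)⁻¹ := by
        rw [← map_inv, ← map_mul, ← map_mul, hainv, map_inv]
      rw [hτ', show (d.actH d.p ^ i)⁻¹ * d.actH a * d.actH d.p * ((d.actH d.p ^ i)⁻¹ * d.actH a)⁻¹ =
        (d.actH d.p ^ i)⁻¹ * (d.actH a * d.actH d.p * (d.actH a)⁻¹) * d.actH d.p ^ i by group, hai]
      group
    have hfix : ∀ w ∈ d.img D, d.actH τ w = w := by
      intro w hw
      obtain ⟨b, hb, hbD, rfl⟩ := d.mem_img.1 hw
      rw [d.conj_mem_Z hb, hVc τ hτV b hbD.1]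
      simp
    have hsq : Nat.card (d.img D) * Nat.card (d.img D) ≤ Nat.card (d.rep.F A₀) := by
      let f : (d.img D) × (d.img D) → d.rep.F A₀ := fun y =>
        ⟨y.1.1 * d.actH d.p y.2.1, mul_mem (himg y.1.2) (d.rep.pinv_fixed _ _ (himg y.2.2))⟩
      have hf : Function.Injective f := by
        rintro ⟨x, y⟩ ⟨x', y'⟩ e
        have e' : x.1 * d.actH d.p y.1 = x'.1 * d.actH d.p y'.1 := congrArg Subtype.val e
        have e2 : x'.1⁻¹ * x.1 = d.actH d.p (y'.1 * y.1⁻¹) := by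
          rw [map_mul, map_inv, inv_mul_eq_iff_eq_mul, ← mul_assoc, ← e', mul_inv_cancel_right]
        set v := y'.1 * y.1⁻¹
        have hv1 : d.actH τ v = v := hfix _ (mul_mem y'.2 (inv_mem y.2))
        have hpv : d.actH τ (d.actH d.p v) = d.actH d.p v :=
          e2 ▸ hfix _ (mul_mem (inv_mem x'.2) x.2)
        have h3 : d.actH τ (d.actH d.p v) = (d.actH d.p)⁻¹ v := by
          have := congrArg (fun φ : MulAut d.W => φ (d.actH τ v)) hrel
          simp only [MulAut.mul_apply, MulAut.inv_apply_self] at this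
          rwa [hv1] at this
        have h4 : d.actH d.p (d.actH d.p v) = v := by
          rw [hpv] at h3
          rw [h3, MulAut.apply_inv_self]
        have hp3 : d.actH d.p (d.actH d.p (d.actH d.p v)) = v := by
          rw [← MulAut.mul_apply, ← MulAut.mul_apply, ← map_mul, ← map_mul, ← pow_three', d.p3,
            map_one, MulAut.one_apply]
        rw [h4] at hp3
        have hv : v = 1 := d.rep.fpf v hp3
        have hy : y = y' := Subtype.ext (mul_inv_eq_one.1 hv).symm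
        rw [hv, map_one, inv_mul_eq_one] at e2
        exact Prod.ext (Subtype.ext e2.symm) hy
      have := d.rep.finite_W
      simpa [Nat.card_prod] using Nat.card_le_card_of_injective f hf
    by_cases h16 : 16 ≤ Nat.card A₀
    · have hc := hcases A₀ hA₀sq h16 hA₀T
      have hA16 : Nat.card A₀ = 16 := by
        rcases hc with h | h <;> rw [h, card_conjS]
        exacts [card_hex, card_duad]
      have hF := d.card_F_big hc
      rw [hA16] at hcardVI
      have h32 : 32 ≤ Nat.card (d.img D) := by omega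
      have := Nat.mul_le_mul h32 h32
      omega
    · obtain ⟨e, he⟩ : ∃ e, Nat.card A₀ = 2 ^ e :=
        IsPGroup.iff_card.1 fun a => ⟨1, Subtype.ext (by simpa [pow_two] using hA₀sq _ a.2)⟩
      have he3 : e = 3 := by
        have h1 : e ≤ 3 := by
          by_contra h
          exact h16 (he ▸ (Nat.pow_le_pow_right (show 0 < 2 by norm_num) (show 4 ≤ e by omega)))
        by_contra h
        have : 2 ^ e ≤ 2 ^ 2 := Nat.pow_le_pow_right (show 0 < 2 by norm_num) (by omega)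
        have := Nat.mul_le_mul this hD128
        rw [← he, ← hcardVI] at this
        omega
      rw [he, he3] at hcardVI
      have h64 : 64 ≤ Nat.card (d.img D) := by omega
      have hF : 64 * 64 ≤ Nat.card (d.rep.F A₀) := (Nat.mul_le_mul h64 h64).trans hsq
      have := d.rep.finite_W
      have htop : d.rep.F A₀ = ⊤ := by
        refine Subgroup.eq_top_of_le_card _ ?_
        rw [d.rep.card]; omega
      obtain ⟨b, hb, hb1⟩ := (Subgroup.bot_or_exists_ne_one A₀).resolve_left fun h => by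
        rw [h, Subgroup.card_bot, he3] at he; norm_num at he
      obtain ⟨x, hx, hxx⟩ := d.rep.exists_lift_two hA₀sq hb
      have hx1 : x = 1 := d.rep.inj (by
        rw [map_one]
        refine MulEquiv.ext fun w => ?_
        have hw : w ∈ d.rep.F A₀ := htop ▸ Subgroup.mem_top w
        exact hw x ⟨hx ▸ hb, hxx⟩)
      exact hb1 (by rw [← hx, hx1, map_one])

/-- Elements of a normaliser in the acting group normalise the preimage of a fixed space. -/
theorem conj_mem_pre {A : Subgroup M} {c : H} (hc : c ∈ d.C)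
    (h : conjS (d.sigma ⟨c, hc⟩) A = A) {x : H} (hx : x ∈ d.pre (d.rep.F A)) :
    c * x * c⁻¹ ∈ d.pre (d.rep.F A) := by
  obtain ⟨hxE, hxF⟩ := d.mem_pre.1 hx
  refine d.mem_pre.2 ⟨d.normalE c x hxE, ?_⟩
  rw [← d.actH_q c hxE]
  exact d.rep.F_invariant (x := QuotientGroup.mk ⟨c, hc⟩) h hxF

theorem conjS_inv {G : Type*} [Group G] {n : G} {A : Subgroup G} (h : conjS n A = A) :
    conjS n⁻¹ A = A := by
  ext x
  rw [mem_conjS, inv_inv]
  conv_lhs => rw [← h, mem_conjS]
  simp [mul_assoc]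

include d in
/-- The unique elementary abelian subgroup of order `2 ^ 11`. -/
theorem existsUnique_elementary (T : Sylow 2 H) :
    ∃! V : Subgroup H, V ≤ (T : Subgroup H) ∧ ((∀ a ∈ V, ∀ b ∈ V, a * b = b * a) ∧
      ∀ a ∈ V, a * a = 1) ∧ Nat.card V = 2 ^ 11 := by
  obtain ⟨S, hS⟩ := d.innPre_eq_sylow T
  obtain ⟨g, hgS, hcases⟩ := elem_in_sylow S
  rw [← hS] at hgS hcases
  set A := conjS g hex
  have hAsq : ∀ a ∈ A, a * a = 1 := by
    rintro _ ⟨b, hb, rfl⟩
    rw [← map_mul, sq_hex b hb, map_one]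
  set F₀ := d.rep.F A
  have hF₀ : Nat.card F₀ = 64 := by
    show Nat.card (d.rep.F (conjS g hex)) = 64
    rw [d.rep.card_F_conj]; exact d.rep.card_F_hex
  set U := d.pre F₀
  have hUE : U ≤ d.E := fun x hx => (d.mem_pre.1 hx).1
  have hUcard : Nat.card U = 128 := by rw [d.card_pre, hF₀]
  have hzU : d.z ∈ U := d.mem_pre.2 ⟨d.zmem, by
    rw [(d.q_one_iff).2 (Subgroup.mem_zpowers _)]; exact one_mem _⟩
  set C₀ := d.E ⊓ Subgroup.centralizer (U : Set H)
  have hC₀ : Nat.card C₀ = 128 := by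
    have := d.card_centralizer_eq hUE hzU
    rw [hUcard] at this
    change 128 * Nat.card C₀ = _ at this
    omega
  -- elements of the centraliser of `p` normalising `A` act on `C₀`
  have hnormC₀ : ∀ (c : H) (hc : c ∈ d.C), conjS (d.sigma ⟨c, hc⟩) A = A →
      ∀ x ∈ C₀, c * x * c⁻¹ ∈ C₀ := by
    intro c hc h x hx
    refine ⟨d.normalE c x hx.1, Subgroup.mem_centralizer_iff.2 fun y hy => ?_⟩
    have hy' : c⁻¹ * y * c ∈ U := by
      have := d.conj_mem_pre (A := A) (inv_mem hc) (by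
        rw [show (⟨c⁻¹, inv_mem hc⟩ : d.C) = (⟨c, hc⟩ : d.C)⁻¹ from rfl, map_inv]
        exact conjS_inv h) (SetLike.mem_coe.1 hy)
      simpa using this
    have e := Subgroup.mem_centralizer_iff.1 hx.2 _ hy'
    calc y * (c * x * c⁻¹) = c * (c⁻¹ * y * c * x) * c⁻¹ := by group
      _ = c * (x * (c⁻¹ * y * c)) * c⁻¹ := by rw [e]
      _ = c * x * c⁻¹ * y := by group
  -- the fixed space meets the image of `C₀`
  have hUab : U = C₀ := by
    have := d.rep.finite_W
    have := d.rep.finite_X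
    set S₀ := d.rep.F A ⊓ d.img C₀
    have hY : ∀ (x : d.X), conjS (d.rep.proj x) A = A → ∀ w ∈ d.img C₀,
        d.rep.act x w ∈ d.img C₀ := by
      intro x
      induction x using QuotientGroup.induction_on with
      | H c =>
        intro h w hw
        obtain ⟨b, hb, hbC, rfl⟩ := d.mem_img.1 hw
        exact d.mem_img.2 ⟨_, d.normalE c b hb, hnormC₀ c c.2 h b hbC, (d.actH_q c hb).symm⟩
    have hne : S₀ ≠ ⊥ := by
      haveI : Fact (Nat.Prime 2) := ⟨Nat.prime_two⟩
      let L := d.rep.liftSub hAsq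
      have hLn : ∀ x : L, conjS (d.rep.proj x.1) A = A := fun x => by
        ext a
        rw [mem_conjS]
        have hx := x.2.1
        constructor
        · intro h
          have := mul_mem (mul_mem hx h) (inv_mem hx)
          simpa [mul_assoc] using this
        · intro h
          exact mul_mem (mul_mem (inv_mem hx) h) hx
      let _ : MulAction L (d.img C₀) :=
        { smul := fun x w => ⟨d.rep.act x.1 w.1, hY x.1 (hLn x) w.1 w.2⟩
          one_smul := fun w => Subtype.ext (d.rep.act_one _)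
          mul_smul := fun x y w => Subtype.ext (d.rep.act_mul _ _ _) }
      have hL : IsPGroup 2 L := fun x => ⟨1, Subtype.ext (by simpa [pow_two] using x.2.2)⟩
      have hdvd : 2 ∣ Nat.card (d.img C₀) := by
        obtain ⟨j, hj⟩ := d.rep.card_two_pow (d.img C₀)
        have := d.card_le_img (D := C₀) inf_le_left
        rw [hC₀, hj] at this
        rcases j with _ | j
        · norm_num at this
        · rw [hj]; exact dvd_pow_self 2 (by omega)
      have h1 : (1 : d.img C₀) ∈ MulAction.fixedPoints L (d.img C₀) :=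
        fun x => Subtype.ext (map_one _)
      obtain ⟨w, hw, hne⟩ := hL.exists_fixed_point_of_prime_dvd_card_of_fixed_point _ hdvd h1
      intro hbot
      have hwm : (w : d.W) ∈ S₀ := ⟨fun x hx => congrArg Subtype.val (hw ⟨x, hx⟩), w.2⟩
      rw [hbot, Subgroup.mem_bot] at hwm
      exact hne (Subtype.ext hwm).symm
    have h64 : 64 ≤ Nat.card S₀ := by
      refine (d.rep.twist g).hex_min (S := S₀) (fun x hx w hw => ?_) hne
      have hx' : conjS (d.rep.proj x) A = A := by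
        have e : (d.rep.twist g).proj x = g⁻¹ * d.rep.proj x * g := by simp [Rep.twist]
        rw [e] at hx
        ext a
        rw [mem_conjS, mem_conjS, mem_conjS]
        have := SetLike.ext_iff.1 hx (g⁻¹ * a * g)
        rw [mem_conjS] at this
        simpa [mul_assoc] using this
      exact ⟨d.rep.F_invariant hx' hw.1, hY x hx' w hw.2⟩
    have hSF : S₀ = d.rep.F A := Subgroup.eq_of_le_of_card_ge inf_le_left (hF₀.le.trans h64)
    refine Subgroup.eq_of_le_of_card_ge (fun u hu => ?_) (by rw [hC₀, hUcard])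
    obtain ⟨hue, huF⟩ := d.mem_pre.1 hu
    have : d.q u hue ∈ S₀ := hSF ▸ huF
    obtain ⟨b, hb, hbC, hbu⟩ := d.mem_img.1 this.2
    rw [q_eq_iff] at hbu
    have hzC : d.Z ≤ C₀ := Subgroup.zpowers_le.2
      ⟨d.zmem, Subgroup.mem_centralizer_iff.2 fun y _ => (d.zc y).eq.symm⟩
    simpa using mul_mem hbC (hzC hbu)
  have hUc : ∀ a ∈ U, ∀ b ∈ U, a * b = b * a := fun a ha b hb =>
    (Subgroup.mem_centralizer_iff.1 (hUab.le hb).2 a ha)
  have hpA : conjS (d.sigma ⟨d.p, d.mem_C.2 (Commute.refl _)⟩) A = A := by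
    have h : d.sigma ⟨d.p, d.mem_C.2 (Commute.refl _)⟩ = 1 := d.rep.proj_p
    rw [h]
    ext a; simp
  have hUsq : ∀ a ∈ U, a * a = 1 := by
    intro a ha
    obtain ⟨haE, haF⟩ := d.mem_pre.1 ha
    set b := d.p * a * d.p⁻¹
    set c := d.p * b * d.p⁻¹
    have hb : b ∈ U := d.conj_mem_pre (d.mem_C.2 (Commute.refl _)) hpA ha
    have hc : c ∈ U := d.conj_mem_pre (d.mem_C.2 (Commute.refl _)) hpA hb
    have habc : a * b * c ∈ d.Z := by
      rw [← d.q_one_iff (ha := mul_mem (mul_mem haE (hUE hb)) (hUE hc))]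
      apply d.rep.fpf
      show d.actH d.p _ = _
      rw [actH_q, q_eq_iff]
      have h3 : d.p * c * d.p⁻¹ = a := by
        simp only [c, b]
        rw [show d.p * (d.p * (d.p * a * d.p⁻¹) * d.p⁻¹) * d.p⁻¹ = d.p ^ 3 * a * (d.p ^ 3)⁻¹ by
          simp only [pow_succ, pow_zero, one_mul, mul_inv_rev, mul_assoc], d.p3]
        simp
      have e : d.p * (a * b * c) * d.p⁻¹ = a * b * c := by
        rw [show d.p * (a * b * c) * d.p⁻¹ =
          d.p * a * d.p⁻¹ * (d.p * b * d.p⁻¹) * (d.p * c * d.p⁻¹) by group, h3]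
        show b * c * a = a * b * c
        rw [mul_assoc a b c, hUc _ (mul_mem hb hc) a ha]
      rw [e, inv_mul_cancel]
      exact one_mem _
    have hsqeq : ∀ x ∈ d.E, d.p * x * d.p⁻¹ * (d.p * x * d.p⁻¹) = x * x := fun x hx => by
      rw [show d.p * x * d.p⁻¹ * (d.p * x * d.p⁻¹) = d.p * (x * x) * d.p⁻¹ by group]
      exact d.z_conj _ (d.mem_Z.2 (d.sqE x hx))
    have h1 : (a * b * c) * (a * b * c) = 1 := by
      rcases d.mem_Z.1 habc with h | h <;> rw [h]
      exacts [one_mul 1, d.zz]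
    have h2 : a * b * c * (a * b * c) = a * a * (b * b) * (c * c) := by
      have hab : Commute a b := hUc a ha b hb
      have hac : Commute (a * b) c := hUc _ (mul_mem ha hb) c hc
      rw [← pow_two, hac.mul_pow, hab.mul_pow, pow_two, pow_two, pow_two]
    rw [h2, show c * c = b * b from hsqeq b (hUE hb), show b * b = a * a from hsqeq a haE] at h1
    rcases d.sqE a haE with h | h
    · exact h
    · rw [h, d.zz, one_mul] at h1; exact absurd h1 d.zne
  -- the candidate
  set TA := (T : Subgroup H) ⊓ (A.map (MulAut.conj : M →* MulAut M)).comap d.π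
  set K := TA ⊓ Subgroup.centralizer (U : Set H)
  have hETA : d.E ≤ TA := fun x hx => ⟨d.E_le_sylow T hx, by
    show d.π x ∈ A.map (MulAut.conj : M →* MulAut M)
    rw [(MonoidHom.mem_ker).1 (d.E_le hx)]; exact one_mem _⟩
  have hTA : Nat.card TA = 2 ^ 17 := by
    let f : TA →* MulAut M := d.π.comp TA.subtype
    have h := Subgroup.card_mul_index f.ker
    rw [Subgroup.index_ker] at h
    have hr : f.range = A.map (MulAut.conj : M →* MulAut M) := by
      ext φ
      constructor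
      · rintro ⟨v, rfl⟩; exact v.2.2
      · rintro ⟨a, ha, rfl⟩
        obtain ⟨t, ht, hta⟩ := d.mem_innPre.1 (hgS ha)
        exact ⟨⟨t, ht, show d.π t ∈ A.map (MulAut.conj : M →* MulAut M) from ⟨a, ha, hta.symm⟩⟩, hta⟩
    have hk : Nat.card f.ker = Nat.card d.E := Nat.card_congr
      { toFun := fun v => ⟨v.1.1, d.ker_inf_sylow T v.1.2.1 v.2⟩
        invFun := fun x => ⟨⟨x.1, hETA x.2⟩, d.E_le x.2⟩
        left_inv := fun _ => rfl
        right_inv := fun _ => rfl }
    rw [← h, hr, hk, Subgroup.card_map_of_injective conj_injective_M, d.cardE, card_conjS,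
      card_hex]
    norm_num
  have hdec : ∀ t ∈ TA, ∃ a ∈ A, d.π t = MulAut.conj a := fun t ht => by
    obtain ⟨a, ha, e⟩ := ht.2
    exact ⟨a, ha, e.symm⟩
  have hcomm : ∀ t ∈ TA, ∀ u ∈ U, t * u * t⁻¹ * u⁻¹ = 1 ∨ t * u * t⁻¹ * u⁻¹ = d.z := by
    intro t ht u hu
    obtain ⟨a, ha, hta⟩ := hdec t ht
    obtain ⟨c, -, hte, hσ, hcc⟩ := d.decomp T ht.1 hta (hAsq a ha)
    obtain ⟨hue, huF⟩ := d.mem_pre.1 hu
    refine d.mem_Z.1 ((d.conj_mem_Z hue).1 ?_)
    rw [d.act_decomp hte]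
    exact huF _ ⟨show d.rep.proj (QuotientGroup.mk c) ∈ A from
      (show d.rep.proj (QuotientGroup.mk c) = a from hσ) ▸ ha, hcc⟩
  have hKU : K ⊓ d.E = U := by
    refine le_antisymm (fun x hx => hUab.ge ⟨hx.2, hx.1.2⟩) fun x hx =>
      ⟨⟨hETA (hUE hx), Subgroup.mem_centralizer_iff.2 fun y hy => hUc y hy x hx⟩, hUE hx⟩
  have hKcard : Nat.card K = 2 ^ 11 := by
    refine le_antisymm ?_ ?_
    · have h := mul_card_le (A := K) (B := d.E) (C := TA) inf_le_left hETA
      rw [hKU, hUcard, hTA, d.cardE] at h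
      omega
    · have h := pairing_bound (U := TA) (T := U) (z := d.z) hcomm
      have h1 : 2 ≤ Nat.card ↥(U ⊓ Subgroup.centralizer (TA : Set H)) := by
        rw [← d.card_Z]
        refine Subgroup.card_le_of_le (Subgroup.zpowers_le.2 ⟨hzU, ?_⟩)
        exact Subgroup.mem_centralizer_iff.2 fun y _ => (d.zc y).eq.symm
      have h' := (Nat.mul_le_mul_left (Nat.card TA) h1).trans h
      rw [hTA, hUcard] at h'
      change _ ≤ Nat.card K * 128 at h'
      omega
  have hUK : ∀ {x : H}, x ∈ U → x ∈ K := fun hx => (hKU.ge hx).1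
  have hKcU : ∀ k ∈ K, ∀ u ∈ U, Commute k u := fun k hk u hu =>
    (Subgroup.mem_centralizer_iff.1 hk.2 u hu).symm
  -- conjugation by normalising elements of the centraliser of `p`
  have hconjK : ∀ (c : H) (hc : c ∈ d.C), conjS (d.sigma ⟨c, hc⟩) A = A →
      ∀ k ∈ K, (c * k * c⁻¹ ∈ (T : Subgroup H)) → c * k * c⁻¹ ∈ K := by
    intro c hc h k hk hT
    refine ⟨⟨hT, ?_⟩, Subgroup.mem_centralizer_iff.2 fun y hy => ?_⟩
    · obtain ⟨a, ha, hka⟩ := hdec k hk.1
      refine ⟨d.sigma ⟨c, hc⟩ * a * (d.sigma ⟨c, hc⟩)⁻¹, h.le ⟨a, ha, rfl⟩, ?_⟩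
      rw [map_mul, map_mul, map_inv, map_mul, map_mul, map_inv, d.conj_sigma, hka]
    · have hy' : c⁻¹ * y * c ∈ U := by
        have := d.conj_mem_pre (A := A) (inv_mem hc) (by
          rw [show (⟨c⁻¹, inv_mem hc⟩ : d.C) = (⟨c, hc⟩ : d.C)⁻¹ from rfl, map_inv]
          exact conjS_inv h) (SetLike.mem_coe.1 hy)
        simpa using this
      have e := Subgroup.mem_centralizer_iff.1 hk.2 _ hy'
      calc y * (c * k * c⁻¹) = c * (c⁻¹ * y * c * k) * c⁻¹ := by group
        _ = c * (k * (c⁻¹ * y * c)) * c⁻¹ := by rw [e]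
        _ = c * k * c⁻¹ * y := by group
  -- every element is a product of an element centralising `p` and an element of `U`
  have hsplit : ∀ k ∈ K, ∃ y ∈ K, y ∈ d.C ∧ ∃ u ∈ U, k = y * u := by
    intro k hk
    obtain ⟨a, ha, hka⟩ := hdec k hk.1
    have hpk : d.p * k * d.p⁻¹ ∈ K := by
      refine hconjK _ (d.mem_C.2 (Commute.refl _)) hpA k hk ?_
      obtain ⟨c, hcT, hte, -, -⟩ := d.decomp T hk.1.1 hka (hAsq a ha)
      have hE : d.p * (k * (c : H)⁻¹) * d.p⁻¹ ∈ d.E := d.normalE _ _ hte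
      have : d.p * k * d.p⁻¹ = d.p * (k * (c : H)⁻¹) * d.p⁻¹ * (c : H) := by
        rw [mul_assoc _ d.p⁻¹, ← (d.mem_C.1 c.2).inv_right.eq]; group
      rw [this]
      exact mul_mem (d.E_le_sylow T hE) hcT
    set k₁ := d.p * k * d.p⁻¹
    have hk₁π : d.π k₁ = d.π k := by
      simp only [k₁, map_mul, map_inv, (MonoidHom.mem_ker).1 d.pker, inv_one, one_mul, mul_one]
    have hu₁ : k⁻¹ * k₁ ∈ U := by
      rw [← hKU]
      have hkT : k ∈ (T : Subgroup H) := hk.1.1
      have hpkT : k₁ ∈ (T : Subgroup H) := hpk.1.1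
      refine Subgroup.mem_inf.2 ⟨mul_mem (inv_mem hk) hpk, d.ker_inf_sylow T (mul_mem (inv_mem hkT) hpkT) ?_⟩
      rw [MonoidHom.mem_ker, map_mul, map_inv, hk₁π, inv_mul_cancel]
    set u₁ := k⁻¹ * k₁
    have hk₁ : k₁ = k * u₁ := (mul_inv_cancel_left k k₁).symm
    have hpu₁ : d.p * u₁ * d.p⁻¹ ∈ U := d.conj_mem_pre (d.mem_C.2 (Commute.refl _)) hpA hu₁
    set u₂ := d.p * u₁ * d.p⁻¹
    set k₂ := d.p * k₁ * d.p⁻¹
    have hk₂ : k₂ = k * (u₁ * u₂) := by
      simp only [k₂, u₂]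
      rw [hk₁, show d.p * (k * u₁) * d.p⁻¹ = d.p * k * d.p⁻¹ * (d.p * u₁ * d.p⁻¹) by group]
      show k₁ * _ = _
      rw [hk₁, mul_assoc]
    have hk₃ : d.p * k₂ * d.p⁻¹ = k := by
      simp only [k₂, k₁]
      rw [show d.p * (d.p * (d.p * k * d.p⁻¹) * d.p⁻¹) * d.p⁻¹ = d.p ^ 3 * k * (d.p ^ 3)⁻¹ by
        simp only [pow_succ, pow_zero, one_mul, mul_inv_rev, mul_assoc], d.p3]
      simp
    have hkk : k * k ∈ U := by
      rw [← hKU]
      refine ⟨mul_mem hk hk, d.ker_inf_sylow T (mul_mem hk.1.1 hk.1.1) ?_⟩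
      rw [MonoidHom.mem_ker, map_mul, hka, ← map_mul, hAsq a ha, map_one]
    have hk2U : u₁ * u₂ ∈ U := mul_mem hu₁ hpu₁
    have hk₂K : k₂ ∈ K := by rw [hk₂]; exact mul_mem hk (hUK hk2U)
    have c01 : Commute k k₁ := by
      rw [hk₁]; exact (Commute.refl k).mul_right (hKcU k hk _ hu₁)
    have c12 : Commute k₁ k₂ := by
      rw [hk₂]; exact (c01.symm).mul_right (hKcU k₁ hpk _ hk2U)
    have c02 : Commute k k₂ := by
      rw [hk₂]; exact (Commute.refl k).mul_right (hKcU k hk _ hk2U)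
    refine ⟨k * k₁ * k₂, mul_mem (mul_mem hk hpk) hk₂K, d.mem_C.2 ?_, ?_⟩
    · have : d.p * (k * k₁ * k₂) * d.p⁻¹ = k * k₁ * k₂ := by
        rw [show d.p * (k * k₁ * k₂) * d.p⁻¹ =
          d.p * k * d.p⁻¹ * (d.p * k₁ * d.p⁻¹) * (d.p * k₂ * d.p⁻¹) by group, hk₃]
        show k₁ * k₂ * k = k * k₁ * k₂
        rw [← (c01.mul_right c02).eq]
        exact (mul_assoc _ _ _).symm
      exact ((mul_inv_eq_iff_eq_mul.1 this).symm)
    · refine ⟨(k * k₁ * k₂)⁻¹ * k, ?_, (mul_inv_cancel_left _ _).symm⟩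
      have e : k * k₁ * k₂ = k * (k * k) * (u₁ * (u₁ * u₂)) := by
        rw [hk₂, hk₁]
        calc k * (k * u₁) * (k * (u₁ * u₂)) = k * k * (u₁ * k) * (u₁ * u₂) := by group
          _ = k * k * (k * u₁) * (u₁ * u₂) := by rw [(hKcU k hk _ hu₁).eq]
          _ = k * (k * k) * (u₁ * (u₁ * u₂)) := by group
      rw [e, show (k * (k * k) * (u₁ * (u₁ * u₂)))⁻¹ * k =
        (u₁ * (u₁ * u₂))⁻¹ * (k * k)⁻¹ by group]
      exact mul_mem (inv_mem (mul_mem hu₁ hk2U)) (inv_mem hkk)
  -- all those elements square to one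
  have hy : ∀ y ∈ K, y ∈ d.C → y * y = 1 := by
    have hlift : ∀ a ∈ A, ∃ y ∈ K, y ∈ d.C ∧ d.π y = MulAut.conj a := by
      let f : K →* MulAut M := d.π.comp K.subtype
      have h := Subgroup.card_mul_index f.ker
      rw [Subgroup.index_ker] at h
      have hk : Nat.card f.ker = Nat.card U := by
        rw [← hKU]
        exact Nat.card_congr
          { toFun := fun v => ⟨v.1.1, v.1.2, d.ker_inf_sylow T v.1.2.1.1 v.2⟩
            invFun := fun x => ⟨⟨x.1, x.2.1⟩, d.E_le x.2.2⟩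
            left_inv := fun _ => rfl
            right_inv := fun _ => rfl }
      rw [hk, hUcard, hKcard] at h
      have hr : f.range = A.map (MulAut.conj : M →* MulAut M) := by
        refine Subgroup.eq_of_le_of_card_ge ?_ ?_
        · rintro _ ⟨v, rfl⟩; exact v.2.1.2
        · rw [Subgroup.card_map_of_injective conj_injective_M, card_conjS, card_hex]; omega
      intro a ha
      obtain ⟨v, hv⟩ : MulAut.conj a ∈ f.range := hr.ge ⟨a, ha, rfl⟩
      obtain ⟨y, hyK, hyC, u, hu, he⟩ := hsplit v v.2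
      refine ⟨y, hyK, hyC, ?_⟩
      change d.π v = _ at hv
      rw [he, map_mul, (MonoidHom.mem_ker).1 (d.E_le (hUE hu)), mul_one] at hv
      exact hv
    have hsame : ∀ y₁ ∈ K, y₁ ∈ d.C → ∀ y₂ ∈ K, y₂ ∈ d.C → d.π y₁ = d.π y₂ →
        y₁⁻¹ * y₂ ∈ d.Z := fun y₁ h₁ c₁ y₂ h₂ c₂ e =>
      d.mem_Z_of_C (d.ker_inf_sylow T (mul_mem (inv_mem h₁.1.1) h₂.1.1) (by
        rw [MonoidHom.mem_ker, map_mul, map_inv, e, inv_mul_cancel])) (mul_mem (inv_mem c₁) c₂)
    have hsqZ : ∀ y ∈ K, y ∈ d.C → y * y = 1 ∨ y * y = d.z := by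
      intro y hy hyC
      obtain ⟨a, ha, e⟩ := hdec y hy.1
      refine d.mem_Z.1 (d.mem_Z_of_C (d.ker_inf_sylow T (mul_mem hy.1.1 hy.1.1) ?_)
        (mul_mem hyC hyC))
      rw [MonoidHom.mem_ker, map_mul, e, ← map_mul, hAsq a ha, map_one]
    have hsqeq : ∀ y₁ ∈ K, y₁ ∈ d.C → ∀ y₂ ∈ K, y₂ ∈ d.C → d.π y₁ = d.π y₂ →
        y₂ * y₂ = y₁ * y₁ := fun y₁ h₁ c₁ y₂ h₂ c₂ e => by
      rcases d.mem_Z.1 (hsame y₁ h₁ c₁ y₂ h₂ c₂ e) with h | h
      · rw [inv_mul_eq_one.1 h]
      · rw [inv_mul_eq_iff_eq_mul.1 h, ← pow_two, (d.zc y₁).symm.mul_pow, pow_two, pow_two, d.zz,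
          mul_one]
    have htr : ∀ y ∈ K, y ∈ d.C → ∀ y' ∈ K, y' ∈ d.C → d.π y ≠ 1 → d.π y' ≠ 1 →
        y' * y' = y * y := by
      intro y hy hyC y' hy' hyC' h1 h1'
      obtain ⟨a, ha, hya⟩ := hdec y hy.1
      obtain ⟨b, hb, hyb⟩ := hdec y' hy'.1
      have ha' : g⁻¹ * a * g ∈ hex := mem_conjS.1 ha
      have hb' : g⁻¹ * b * g ∈ hex := mem_conjS.1 hb
      have hne : ∀ {v : H} {x : M}, d.π v = MulAut.conj x → d.π v ≠ 1 → g⁻¹ * x * g ≠ 1 :=
        fun {v x} e hv h => hv (by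
          rw [e, show x = g * (g⁻¹ * x * g) * g⁻¹ by group, h, mul_one, mul_inv_cancel, map_one])
      obtain ⟨n, hn, hnab⟩ := hex_trans ha' (hne hya h1) hb' (hne hyb h1')
      have hm : MulAut.conj (g * n * g⁻¹) ∈ d.C.map d.π := by rw [d.map_C]; exact ⟨_, rfl⟩
      obtain ⟨c, hc, hcn⟩ := hm
      have hσ : d.sigma ⟨c, hc⟩ = g * n * g⁻¹ := conj_injective_M (by rw [d.conj_sigma]; exact hcn)
      have hnorm : conjS (d.sigma ⟨c, hc⟩) A = A := by
        rw [hσ]
        ext x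
        rw [mem_conjS, mem_conjS, mem_conjS]
        have := SetLike.ext_iff.1 hn (g⁻¹ * x * g)
        rw [mem_conjS] at this
        simpa [mul_assoc] using this
      set y'' := c * y * c⁻¹
      have hπ : d.π y'' = d.π y' := by
        simp only [y'']
        rw [map_mul, map_mul, map_inv, hcn, hya, hyb]
        rw [show ∀ X : M, MulAut.conj X * MulAut.conj a * (MulAut.conj X)⁻¹ =
            MulAut.conj (X * a * X⁻¹) from fun X => by rw [map_mul, map_mul, map_inv],
          show g * n * g⁻¹ * a * (g * n * g⁻¹)⁻¹ = g * (n * (g⁻¹ * a * g) * n⁻¹) * g⁻¹ by group,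
          hnab, show g * (g⁻¹ * b * g) * g⁻¹ = b by group]
      have hC'' : y'' ∈ d.C := mul_mem (mul_mem hc hyC) (inv_mem hc)
      have hT : y'' ∈ (T : Subgroup H) := by
        obtain ⟨c', hc'T, hte, hσ', hcc⟩ := d.decomp T hy'.1.1 hyb (hAsq b hb)
        let cy : d.C := ⟨y'', hC''⟩
        have hcy : d.rep.proj (QuotientGroup.mk cy) = d.rep.proj (QuotientGroup.mk c') := by
          show d.sigma cy = d.sigma c'
          rw [hσ']
          apply conj_injective_M
          rw [d.conj_sigma]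
          show d.π y'' = _
          rw [hπ, hyb]
        have hsq' : (QuotientGroup.mk cy : d.X) * QuotientGroup.mk cy = 1 := by
          rw [← QuotientGroup.mk_mul, QuotientGroup.eq_one_iff]
          show y'' * y'' ∈ d.Z
          rw [show y'' * y'' = c * (y * y) * c⁻¹ by simp only [y'']; group,
            d.z_conj c (d.mem_Z.2 (hsqZ y hy hyC))]
          exact d.mem_Z.2 (hsqZ y hy hyC)
        have he := d.rep.lift_two_unique hcy hsq' hcc
        have hmem' : c'⁻¹ * cy ∈ d.Z.subgroupOf d.C := QuotientGroup.eq.1 he.symm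
        have hmem : (c' : H)⁻¹ * y'' ∈ d.Z := hmem'
        have := mul_mem hc'T (d.E_le_sylow T (d.Z_le_E hmem))
        rwa [mul_inv_cancel_left] at this
      have hyK : y'' ∈ K := hconjK c hc hnorm y hy hT
      rw [hsqeq y'' hyK hC'' y' hy' hyC' hπ.symm.symm,
        show y'' * y'' = c * (y * y) * c⁻¹ by simp only [y'']; group,
        d.z_conj c (d.mem_Z.2 (hsqZ y hy hyC))]
    intro y hy hyC
    by_cases h1 : d.π y = 1
    · rcases d.mem_Z.1 (d.mem_Z_of_C (d.ker_inf_sylow T hy.1.1 h1) hyC) with h | h <;> rw [h]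
      exacts [one_mul 1, d.zz]
    refine (hsqZ y hy hyC).resolve_right fun hz => ?_
    obtain ⟨a, ha, hya⟩ := hdec y hy.1
    have ha1 : a ≠ 1 := fun h => h1 (by rw [hya, h, map_one])
    have hA16 : Nat.card A = 16 := (card_conjS g hex).trans card_hex
    have pick : ∀ l : Finset M, l.card < 16 → ∃ b ∈ A, b ∉ l := fun l hl => by
      by_contra h
      push_neg at h
      have := Set.ncard_le_ncard (fun x hx => h x hx : (A : Set M) ⊆ ↑l) l.finite_toSet
      rw [Set.ncard_coe_finset, ← Nat.card_coe_set_eq] at this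
      have h16 : Nat.card (A : Set M) = 16 := hA16
      omega
    classical
    obtain ⟨b, hb, hbn⟩ := pick {1, a} (lt_of_le_of_lt Finset.card_le_two (by norm_num))
    obtain ⟨w, hw, hwn⟩ := pick {1, a, b, a * b}
      (lt_of_le_of_lt Finset.card_le_four (by norm_num))
    simp only [Finset.mem_insert, Finset.mem_singleton, not_or] at hbn hwn
    obtain ⟨y₂, hy₂, hy₂C, e₂⟩ := hlift b hb
    obtain ⟨y₃, hy₃, hy₃C, e₃⟩ := hlift w hw
    have hval : ∀ v ∈ K, v ∈ d.C → ∀ x, d.π v = MulAut.conj x → x ≠ 1 → v * v = d.z := by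
      intro v hv hvC x e hx
      rw [htr y hy hyC v hv hvC h1 (fun h => hx (conj_injective_M (by rw [← e, h, map_one]))), hz]
    have sa : y * y = d.z := hz
    have sb := hval y₂ hy₂ hy₂C b e₂ hbn.1
    have sw := hval y₃ hy₃ hy₃C w e₃ hwn.1
    have anti : ∀ u v : H, u * u = d.z → v * v = d.z → u * v * (u * v) = d.z →
        v * u = u * v * d.z := fun u v hu hv huv => by
      have e : u * (v * u) * v = d.z := by rw [← huv]; group
      have e' : v * u = u⁻¹ * d.z * v⁻¹ := by rw [← e]; group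
      have ui : u⁻¹ = u * d.z := inv_eq_of_mul_eq_one_right (by
        rw [← mul_assoc, hu, d.zz])
      have vi : v⁻¹ = v * d.z := inv_eq_of_mul_eq_one_right (by
        rw [← mul_assoc, hv, d.zz])
      rw [e', ui, vi, mul_assoc u, d.zz, mul_one, ← mul_assoc]
    have hprod : ∀ u ∈ K, u ∈ d.C → ∀ v ∈ K, v ∈ d.C → ∀ x x', d.π u = MulAut.conj x →
        d.π v = MulAut.conj x' → x * x' ≠ 1 → u * v * (u * v) = d.z :=
      fun u hu huC v hv hvC x x' eu ev hne =>
        hval _ (mul_mem hu hv) (mul_mem huC hvC) (x * x') (by rw [map_mul, eu, ev, map_mul]) hne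
    have hmne : ∀ {x x' : M}, x ∈ A → x' ≠ x → x * x' ≠ 1 := fun {x x'} hx hne h => hne (by
      rw [← inv_eq_of_mul_eq_one_right h, inv_eq_of_mul_eq_one_right (hAsq x hx)])
    have r1 := anti y y₂ sa sb
      (hprod y hy hyC y₂ hy₂ hy₂C a b hya e₂ (hmne ha hbn.2))
    have r2 := anti y y₃ sa sw
      (hprod y hy hyC y₃ hy₃ hy₃C a w hya e₃ (hmne ha hwn.2.1))
    have r3 := anti y₂ y₃ sb sw
      (hprod y₂ hy₂ hy₂C y₃ hy₃ hy₃C b w e₂ e₃ (hmne hb hwn.2.2.1))
    have hab : a * b * w ≠ 1 := hmne (mul_mem ha hb) (by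
      exact hwn.2.2.2)
    have s3 := hprod (y * y₂) (mul_mem hy hy₂) (mul_mem hyC hy₂C) y₃ hy₃ hy₃C (a * b) w
      (by rw [map_mul, hya, e₂, map_mul]) e₃ hab
    have s12 : y * y₂ * (y * y₂) = d.z := hprod y hy hyC y₂ hy₂ hy₂C a b hya e₂ (hmne ha hbn.2)
    have e : y₃ * (y * y₂) = y * y₂ * y₃ := by
      rw [← mul_assoc, r2, mul_assoc (y * y₃), (d.zc y₂).eq, ← mul_assoc, mul_assoc y y₃ y₂, r3,
        mul_assoc y, mul_assoc (y₂ * y₃) d.z, d.zz, mul_one, ← mul_assoc]
    have : y * y₂ * y₃ * (y * y₂ * y₃) = 1 := by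
      rw [mul_assoc (y * y₂) y₃, ← mul_assoc y₃, e, mul_assoc (y * y₂) y₃ y₃, sw, ← mul_assoc,
        s12, d.zz]
    rw [this] at s3
    exact d.zne s3.symm
  have hKsq : ∀ k ∈ K, k * k = 1 := by
    intro k hk
    obtain ⟨y, hyK, hyC, u, hu, rfl⟩ := hsplit k hk
    rw [← pow_two, (hKcU y hyK u hu).mul_pow, pow_two, pow_two, hy y hyK hyC, hUsq u hu, one_mul]
  refine ⟨K, ⟨inf_le_left.trans inf_le_left, ⟨fun a ha b hb => comm_of_sq hKsq ha hb, hKsq⟩,
    hKcard⟩, ?_⟩
  rintro V ⟨hVT, ⟨hVc, hVs⟩, hV⟩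
  obtain ⟨hVπ, hVE⟩ := d.shape T hcases hVT hVc hVs hV
  refine Subgroup.eq_of_le_of_card_ge (fun v hv => ⟨⟨hVT hv, hVπ v hv⟩, ?_⟩) (by rw [hKcard, hV])
  refine Subgroup.mem_centralizer_iff.2 fun u hu => ?_
  have hu' : u ∈ V ⊓ d.E := hVE.ge hu
  exact hVc u hu'.1 v hv

end Setup

end CfsgLib.J4Type67
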