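import Cfsg.Agent.J4Type67.Facts
import Mathlib.GroupTheory.Transfer
import Mathlib.GroupTheory.Abelianization.Defs
import Mathlib.GroupTheory.Perm.Cycle.Type

/-!
A faithful module of order `2 ^ 12` for a threefold central extension of `M22`, the central
element acting fixed-point-freely: fixed spaces of the elementary subgroups of order sixteen.
-/

set_option autoImplicit false

namespace CfsgLib.J4Type67

open scoped Pointwise commutatorElement

universe u v

/-! ### Generic counting -/

theorem card_modEq {α : Type*} [Finite α] (f : α → α) {q n : ℕ} (hq : q.Prime)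
    (h : ∀ a, f^[q ^ n] a = a) :
    Nat.card α ≡ Nat.card {a // f a = a} [MOD q] := by
  classical
  have : Fintype α := Fintype.ofFinite α
  haveI : Fact q.Prime := ⟨hq⟩
  have hpow : (show Function.End α from f) ^ q ^ n = 1 := by
    funext a
    have : ∀ k : ℕ, ((show Function.End α from f) ^ k) a = f^[k] a := by
      intro k
      induction k with
      | zero => rfl
      | succ k ih =>
        rw [pow_succ', Function.iterate_succ_apply']
        show f (((show Function.End α from f) ^ k) a) = _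
        rw [ih]
    rw [this]; exact h a
  have := Equiv.Perm.card_fixedPoints_modEq (α := α) (f := f) (p := q) (n := n) hpow
  rw [← Nat.card_eq_fintype_card, ← Nat.card_eq_fintype_card] at this
  exact this

theorem mul_card_le {G : Type*} [Group G] [Finite G] {A B C : Subgroup G} (hA : A ≤ C)
    (hB : B ≤ C) : Nat.card A * Nat.card B ≤ Nat.card ↥(A ⊓ B) * Nat.card C := by
  have h1 := Subgroup.relIndex_mul_relIndex ⊥ (A ⊓ B) A bot_le inf_le_left
  have h2 := Subgroup.relIndex_mul_relIndex ⊥ B C bot_le hB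
  rw [Subgroup.relIndex_bot_left, Subgroup.relIndex_bot_left] at h1 h2
  rw [Subgroup.inf_relIndex_left] at h1
  have hne : B.relIndex C ≠ 0 := fun h => by
    rw [h, mul_zero] at h2
    exact (Nat.card_pos (α := C)).ne' h2.symm
  calc Nat.card A * Nat.card B = Nat.card ↥(A ⊓ B) * (B.relIndex A * Nat.card B) := by
        rw [← h1]; ring
    _ ≤ Nat.card ↥(A ⊓ B) * (B.relIndex C * Nat.card B) :=
        Nat.mul_le_mul_left _ (Nat.mul_le_mul_right _ (Subgroup.relIndex_le_of_le_right hA hne))
    _ = Nat.card ↥(A ⊓ B) * Nat.card C := by rw [← h2]; ring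

theorem fix_of_cube_fifth {G α : Type*} [Group G] [MulAction G α] {x : G} {a : α}
    (h : x ^ 5 = 1) (h2 : (x ^ 2) • a = a) : x • a = a := by
  have h4 : (x ^ 6) • a = a := by
    rw [show x ^ 6 = x ^ 2 * (x ^ 2 * x ^ 2) by group, mul_smul, mul_smul, h2, h2, h2]
  rwa [show x ^ 6 = x by rw [pow_succ, h, one_mul]] at h4

/-! ### The module -/

/-- A threefold central extension of `M22` acting faithfully on an elementary abelian group of
order `2 ^ 12`, the central element without fixed points. -/
structure Rep (X : Type u) (W : Type v) [Group X] [Group W] where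
  act : X →* MulAut W
  inj : Function.Injective act
  proj : X →* M
  surj : Function.Surjective proj
  p : X
  ker : proj.ker = Subgroup.zpowers p
  cube : p ^ 3 = 1
  central : ∀ x, Commute p x
  derived : p ∈ commutator X
  fpf : ∀ w, act p w = w → w = 1
  sq : ∀ w : W, w * w = 1
  card : Nat.card W = 2 ^ 12

namespace Rep

variable {X : Type u} {W : Type v} [Group X] [Group W] (r : Rep X W)

include r in
theorem finite_W : Finite W := Nat.finite_of_card_ne_zero (by rw [r.card]; norm_num)

theorem p_ne_one : r.p ≠ 1 := by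
  intro h
  have hs : Subsingleton W := ⟨fun a b => by
    rw [r.fpf a (by rw [h, map_one]; rfl), r.fpf b (by rw [h, map_one]; rfl)]⟩
  have := r.card
  rw [Nat.card_unique] at this
  norm_num at this

theorem order_p : orderOf r.p = 3 := by
  haveI : Fact (Nat.Prime 3) := ⟨Nat.prime_three⟩
  exact orderOf_eq_prime r.cube r.p_ne_one

theorem proj_p : r.proj r.p = 1 := by
  rw [← MonoidHom.mem_ker, r.ker]; exact Subgroup.mem_zpowers _

theorem exists_pow {x : X} (h : r.proj x = 1) : ∃ i : ℤ, x = r.p ^ i := by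
  rw [← MonoidHom.mem_ker, r.ker, Subgroup.mem_zpowers_iff] at h
  obtain ⟨i, hi⟩ := h
  exact ⟨i, hi.symm⟩

theorem card_ker : Nat.card r.proj.ker = 3 := by
  rw [r.ker, Nat.card_zpowers, r.order_p]

include r in
theorem finite_X : Finite X := by
  refine Nat.finite_of_card_ne_zero ?_
  rw [Subgroup.card_eq_card_quotient_mul_card_subgroup r.proj.ker, r.card_ker,
    Nat.card_congr (QuotientGroup.quotientKerEquivOfSurjective r.proj r.surj).toEquiv]
  exact Nat.mul_ne_zero (Nat.card_pos (α := M)).ne' (by norm_num)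

theorem card_comap (A : Subgroup M) : Nat.card (A.comap r.proj) = 3 * Nat.card A := by
  let f : A.comap r.proj →* A :=
    { toFun := fun x => ⟨r.proj x.1, x.2⟩
      map_one' := by ext1; exact map_one r.proj
      map_mul' := fun a b => by ext1; exact map_mul r.proj a.1 b.1 }
  have hs : Function.Surjective f := fun a => by
    obtain ⟨x, hx⟩ := r.surj a.1
    exact ⟨⟨x, show r.proj x ∈ A from hx ▸ a.2⟩, Subtype.ext hx⟩
  have hk : Nat.card f.ker = 3 := by
    rw [← r.card_ker]
    exact Nat.card_congr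
      { toFun := fun x => ⟨x.1.1, congrArg Subtype.val x.2⟩
        invFun := fun x => ⟨⟨x.1, show r.proj x.1 ∈ A by rw [x.2]; exact one_mem A⟩,
          Subtype.ext x.2⟩
        left_inv := fun _ => rfl
        right_inv := fun _ => rfl }
  rw [Subgroup.card_eq_card_quotient_mul_card_subgroup f.ker, hk,
    Nat.card_congr (QuotientGroup.quotientKerEquivOfSurjective f hs).toEquiv, mul_comm]

/-- Precompose the projection with an inner automorphism. -/
def twist (g : M) : Rep X W where
  act := r.act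
  inj := r.inj
  proj := (MulAut.conj g⁻¹).toMonoidHom.comp r.proj
  surj := (MulAut.conj g⁻¹).surjective.comp r.surj
  p := r.p
  ker := by
    rw [← r.ker]
    ext x
    simp [MonoidHom.mem_ker]
  cube := r.cube
  central := r.central
  derived := r.derived
  fpf := r.fpf
  sq := r.sq
  card := r.card

include r in
theorem comm (a b : W) : a * b = b * a :=
  comm_of_sq (A := ⊤) (fun x _ => r.sq x) (Subgroup.mem_top a) (Subgroup.mem_top b)

include r in
theorem inv_eq (a : W) : a⁻¹ = a := inv_eq_of_mul_eq_one_right (r.sq a)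

/-- The elements fixed by a set. -/
def fixed (S : Set X) : Subgroup W where
  carrier := {w | ∀ x ∈ S, r.act x w = w}
  one_mem' := fun x _ => map_one _
  mul_mem' := fun {a b} ha hb x hx => by rw [map_mul, ha x hx, hb x hx]
  inv_mem' := fun {a} ha x hx => by rw [map_inv, ha x hx]

/-- The subgroup is invariant under the central element. -/
def PInv (S : Subgroup W) : Prop := ∀ w ∈ S, r.act r.p w ∈ S

theorem act_mul (x y : X) (w : W) : r.act (x * y) w = r.act x (r.act y w) := by
  rw [map_mul]; rfl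

theorem act_one (w : W) : r.act 1 w = w := by rw [map_one]; rfl

theorem act_comm (x : X) (w : W) : r.act x (r.act r.p w) = r.act r.p (r.act x w) := by
  rw [← r.act_mul, ← r.act_mul, (r.central x).eq]

theorem act_inv_act (x : X) (w : W) : r.act x⁻¹ (r.act x w) = w := by
  rw [← r.act_mul, inv_mul_cancel, r.act_one]

theorem act_act_inv (x : X) (w : W) : r.act x (r.act x⁻¹ w) = w := by
  rw [← r.act_mul, mul_inv_cancel, r.act_one]

theorem iterate_act (x : X) (w : W) (k : ℕ) : (fun a => r.act x a)^[k] w = r.act (x ^ k) w := by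
  induction k with
  | zero => rw [pow_zero, r.act_one]; rfl
  | succ k ih => rw [Function.iterate_succ_apply', ih, pow_succ', r.act_mul]

theorem pinv_fixed (S : Set X) : r.PInv (r.fixed S) := fun w hw x hx => by
  rw [r.act_comm, hw x hx]

theorem pinv_inf {S T : Subgroup W} (hS : r.PInv S) (hT : r.PInv T) : r.PInv (S ⊓ T) :=
  fun w hw => ⟨hS w hw.1, hT w hw.2⟩

theorem mem_fixed_single {x : X} {w : W} : w ∈ r.fixed {x} ↔ r.act x w = w :=
  ⟨fun h => h x rfl, fun h y hy => by rw [Set.mem_singleton_iff.1 hy, h]⟩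

/-- The action on an invariant subgroup is congruent to its fixed points. -/
theorem card_fixed_modEq (S : Subgroup W) (x : X) (hS : ∀ w ∈ S, r.act x w ∈ S) {q n : ℕ}
    (hq : q.Prime) (hx : x ^ q ^ n = 1) :
    Nat.card S ≡ Nat.card ↥(S ⊓ r.fixed {x}) [MOD q] := by
  have := r.finite_W
  let f : S → S := fun w => ⟨r.act x w, hS w w.2⟩
  have hit : ∀ (k : ℕ) (w : S), ((f^[k] w : S) : W) = r.act (x ^ k) w := by
    intro k w
    induction k with
    | zero => rw [pow_zero, r.act_one]; rfl
    | succ k ih =>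
      rw [Function.iterate_succ_apply', pow_succ', r.act_mul, ← ih]
  have h := card_modEq f hq (n := n) fun w => Subtype.ext (by rw [hit, hx, r.act_one])
  let eqv : {a : S // f a = a} ≃ ↥(S ⊓ r.fixed {x}) :=
    { toFun := fun a => ⟨a.1.1, a.1.2, r.mem_fixed_single.2 (congrArg Subtype.val a.2)⟩
      invFun := fun a => ⟨⟨a.1, a.2.1⟩, Subtype.ext (r.mem_fixed_single.1 a.2.2)⟩
      left_inv := fun _ => rfl
      right_inv := fun _ => rfl }
  rwa [Nat.card_congr eqv] at h

include r in
theorem card_two_pow (S : Subgroup W) : ∃ j, Nat.card S = 2 ^ j := by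
  have := r.finite_W
  exact IsPGroup.iff_card.1 (fun w => ⟨1, Subtype.ext (by simp [pow_two, r.sq])⟩)

theorem card_four_pow {S : Subgroup W} (hS : r.PInv S) : ∃ k, Nat.card S = 4 ^ k := by
  have := r.finite_W
  obtain ⟨j, hj⟩ := r.card_two_pow S
  have h := r.card_fixed_modEq S r.p hS Nat.prime_three (n := 1) (by rw [pow_one]; exact r.cube)
  have h1 : S ⊓ r.fixed {r.p} = ⊥ := by
    rw [eq_bot_iff]
    exact fun w hw => Subgroup.mem_bot.2 (r.fpf w (r.mem_fixed_single.1 hw.2))
  rw [h1, Subgroup.card_bot, hj] at h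
  rcases Nat.even_or_odd j with ⟨k, rfl⟩ | ⟨k, rfl⟩
  · exact ⟨k, by rw [hj, ← two_mul, pow_mul]; norm_num⟩
  · exfalso
    have : (2 : ℕ) ^ (2 * k + 1) % 3 = 2 := by
      rw [pow_succ, pow_mul, Nat.mul_mod, Nat.pow_mod]; simp
    rw [Nat.ModEq, this] at h
    simp at h

theorem exists_le_six {S : Subgroup W} (hS : r.PInv S) : ∃ k ≤ 6, Nat.card S = 4 ^ k := by
  have := r.finite_W
  obtain ⟨k, hk⟩ := r.card_four_pow hS
  refine ⟨k, ?_, hk⟩
  have := Subgroup.card_le_card_group S
  rw [hk, r.card, show (2 : ℕ) ^ 12 = 4 ^ 6 by norm_num] at this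
  exact (Nat.pow_le_pow_iff_right (by norm_num)).1 this

/-- An invariant subgroup is trivial or large, for a 3-group with the central element in its
derived subgroup. -/
theorem card_ge_of_threeGroup {R : Subgroup X} (hR : IsPGroup 3 R) (hp : r.p ∈ ⁅R, R⁆)
    {S : Subgroup W} (hS : ∀ x ∈ R, ∀ w ∈ S, r.act x w ∈ S) (hne : S ≠ ⊥) :
    64 ≤ Nat.card S := by
  classical
  have := r.finite_W
  have := r.finite_X
  have hpR : r.p ∈ R := Subgroup.commutator_le_self R hp
  have hPI : r.PInv S := fun w hw => hS _ hpR w hw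
  obtain ⟨k, hk6, hk⟩ := r.exists_le_six hPI
  by_contra hlt
  rw [hk] at hlt
  have hk0 : k ≠ 0 := fun h => hne (Subgroup.eq_bot_of_card_eq S (by rw [hk, h, pow_zero]))
  have hk2 : k = 1 ∨ k = 2 := by
    rcases Nat.lt_or_ge k 3 with h | h
    · omega
    · exact absurd (Nat.pow_le_pow_right (by norm_num : 0 < 4) h) hlt
  let _ : MulAction R S :=
    { smul := fun x w => ⟨r.act x.1 w.1, hS x.1 x.2 w.1 w.2⟩
      one_smul := fun w => Subtype.ext (r.act_one _)
      mul_smul := fun x y w => Subtype.ext (r.act_mul _ _ _) }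
  by_cases h3 : ∃ a : S, Nat.card (MulAction.orbit R a) = 3
  · obtain ⟨a, ha⟩ := h3
    let ρ : R →* Equiv.Perm (MulAction.orbit R a) := MulAction.toPermHom R _
    have hperm : Nat.card (Equiv.Perm (MulAction.orbit R a)) = 6 := by
      rw [Nat.card_perm, ha]; rfl
    have hdvd : Nat.card ρ.range ∣ 6 := hperm ▸ Subgroup.card_subgroup_dvd_card _
    obtain ⟨e, he⟩ := IsPGroup.iff_card.1 (hR.of_surjective ρ.rangeRestrict
      ρ.rangeRestrict_surjective)
    have he1 : e ≤ 1 := by
      by_contra h
      have : 3 ^ 2 ∣ 6 := (pow_dvd_pow 3 (by omega : 2 ≤ e)).trans (he ▸ hdvd)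
      norm_num at this
    have hcomm : ∀ x y : R, ρ x * ρ y = ρ y * ρ x := by
      intro x y
      have hc : IsCyclic ρ.range := by
        rcases Nat.le_one_iff_eq_zero_or_eq_one.1 he1 with rfl | rfl
        · have : Subsingleton ρ.range := (Nat.card_eq_one_iff_unique.1 (by rw [he, pow_zero])).1
          exact isCyclic_of_subsingleton
        · haveI : Fact (Nat.Prime 3) := ⟨Nat.prime_three⟩
          exact isCyclic_of_prime_card (by rw [he, pow_one])
      have := (IsCyclic.commGroup (α := ρ.range)).mul_comm ⟨ρ x, x, rfl⟩ ⟨ρ y, y, rfl⟩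
      exact congrArg Subtype.val this
    have hle : ⁅R, R⁆ ≤ (ρ.ker).map R.subtype := by
      rw [Subgroup.commutator_le]
      intro x hx y hy
      refine ⟨⁅(⟨x, hx⟩ : R), ⟨y, hy⟩⁆, ?_, rfl⟩
      rw [SetLike.mem_coe, MonoidHom.mem_ker, map_commutatorElement,
        commutatorElement_eq_one_iff_mul_comm]
      exact hcomm _ _
    obtain ⟨x, hx, hxp⟩ := hle hp
    have hfix : r.act r.p a.1 = a.1 := by
      have := congrArg (fun σ : Equiv.Perm (MulAction.orbit R a) =>
        ((σ ⟨a, MulAction.mem_orbit_self a⟩ : MulAction.orbit R a) : S).1) hx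
      rw [← hxp]
      exact this
    have ha1 : a = 1 := Subtype.ext (r.fpf _ hfix)
    have : MulAction.orbit R a = {1} := by
      ext b
      constructor
      · rintro ⟨x, rfl⟩
        rw [Set.mem_singleton_iff, ha1]
        exact Subtype.ext (map_one _)
      · rintro rfl
        exact ha1 ▸ MulAction.mem_orbit_self _
    rw [this] at ha
    simp at ha
  · push_neg at h3
    haveI : Fact (Nat.Prime 3) := ⟨Nat.prime_three⟩
    have : Fintype S := Fintype.ofFinite _
    have hsum := Nat.card_congr (MulAction.selfEquivSigmaOrbits R S)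
    rw [Nat.card_sigma] at hsum
    have h1 : MulAction.orbit R (1 : S) = {1} := by
      ext b
      constructor
      · rintro ⟨x, rfl⟩; exact Subtype.ext (map_one _)
      · rintro rfl; exact MulAction.mem_orbit_self _
    have hterm : ∀ ω : MulAction.orbitRel.Quotient R S, ω ≠ Quotient.mk'' 1 →
        9 ∣ Nat.card (MulAction.orbit R ω.out) := by
      intro ω hω
      obtain ⟨n, hn⟩ := hR.card_orbit (α := S) ω.out
      rcases n with _ | _ | n
      · exfalso
        have hsub : Subsingleton (MulAction.orbit R ω.out) :=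
          (Nat.card_eq_one_iff_unique.1 (by rw [hn, pow_zero])).1
        have hfix : r.act r.p ω.out.1 = ω.out.1 :=
          congrArg (fun z : MulAction.orbit R ω.out => z.1.1)
            (Subsingleton.elim (⟨(⟨r.p, hpR⟩ : R) • ω.out, MulAction.mem_orbit _ _⟩ :
              MulAction.orbit R ω.out) ⟨ω.out, MulAction.mem_orbit_self _⟩)
        exact hω (by rw [← Quotient.out_eq ω, show ω.out = 1 from Subtype.ext (r.fpf _ hfix)])
      · exact absurd (hn.trans (pow_one 3)) (h3 _)
      · exact hn ▸ Dvd.intro (3 ^ n) (by rw [pow_succ, pow_succ]; ring)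
    rw [← Finset.add_sum_erase Finset.univ _ (Finset.mem_univ (Quotient.mk'' (1 : S)))] at hsum
    have hone : Nat.card (MulAction.orbit R
        (Quotient.mk'' (1 : S) : MulAction.orbitRel.Quotient R S).out) = 1 := by
      have : (Quotient.mk'' (1 : S) : MulAction.orbitRel.Quotient R S).out = 1 := by
        have h : MulAction.orbitRel R S
            (Quotient.mk'' (1 : S) : MulAction.orbitRel.Quotient R S).out 1 :=
          Quotient.exact (Quotient.out_eq _)
        rw [MulAction.orbitRel_apply, h1] at h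
        exact h
      rw [this, h1]; simp
    have h9 : 9 ∣ ∑ ω ∈ Finset.univ.erase (Quotient.mk'' (1 : S)),
        Nat.card (MulAction.orbit R (ω : MulAction.orbitRel.Quotient R S).out) :=
      Finset.dvd_sum fun ω hω => hterm ω (Finset.mem_erase.1 hω).1
    rw [hone, hk] at hsum
    obtain ⟨t, ht⟩ := h9
    rw [ht] at hsum
    rcases hk2 with rfl | rfl <;> norm_num at hsum <;> omega

/-- The central element lies in the derived subgroup of a Sylow 3-subgroup. -/
theorem p_mem_commutator (R : Sylow 3 X) : r.p ∈ ⁅(R : Subgroup X), (R : Subgroup X)⁆ := by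
  have := r.finite_X
  haveI : Fact (Nat.Prime 3) := ⟨Nat.prime_three⟩
  set Rs := (R : Subgroup X)
  let τ : X →* Abelianization Rs := MonoidHom.transfer (Abelianization.of (G := Rs))
  have h1 : τ r.p = 1 := Abelianization.commutator_subset_ker τ r.derived
  have key : ∀ (k : ℕ) (g₀ : X), g₀⁻¹ * r.p ^ k * g₀ ∈ Rs → g₀⁻¹ * r.p ^ k * g₀ = r.p ^ k :=
    fun k g₀ _ => by
      rw [mul_assoc, ((r.central g₀).pow_left k).eq, ← mul_assoc, inv_mul_cancel, one_mul]
  have hm : r.p ^ Rs.index ∈ ⁅Rs, Rs⁆ := by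
    have e := MonoidHom.transfer_eq_pow (Abelianization.of (G := Rs)) r.p key
    have e' : Abelianization.of (G := Rs) ⟨r.p ^ Rs.index,
        MonoidHom.transfer_eq_pow_aux r.p key⟩ = 1 := by
      rw [← e]; exact h1
    rw [← MonoidHom.mem_ker, Abelianization.ker_of] at e'
    rw [← Subgroup.map_subtype_commutator]
    exact ⟨_, e', rfl⟩
  have hco : Nat.Coprime 3 Rs.index :=
    (Nat.prime_three.coprime_iff_not_dvd).2 (Sylow.not_dvd_index R)
  obtain ⟨a, ha⟩ := Nat.exists_mul_mod_eq_one_of_coprime hco.symm (by norm_num)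
  have : (r.p ^ Rs.index) ^ a = r.p := by
    rw [← pow_mul, ← Nat.div_add_mod (Rs.index * a) 3, pow_add, pow_mul, r.cube, one_pow,
      one_mul, ha.2, pow_one]
  rw [← this]
  exact pow_mem hm a

/-- The lift of an element of exponent five. -/
theorem exists_lift_five {m : M} (hm : m ^ 5 = 1) : ∃ x, r.proj x = m ∧ x ^ 5 = 1 := by
  obtain ⟨y, hy⟩ := r.surj m
  obtain ⟨i, hi⟩ := r.exists_pow (x := y ^ 5) (by rw [map_pow, hy, hm])
  refine ⟨y ^ 6, by rw [map_pow, hy, pow_succ, hm, one_mul], ?_⟩
  rw [← pow_mul, show 6 * 5 = 5 * 6 by rfl, pow_mul, hi, ← zpow_natCast, ← zpow_mul, mul_comm,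
    zpow_mul, zpow_natCast, show r.p ^ 6 = 1 by rw [show (6:ℕ) = 3 * 2 by rfl, pow_mul, r.cube,
    one_pow], one_zpow]

theorem lift_five_unique {x y : X} (h : r.proj x = r.proj y) (hx : x ^ 5 = 1) (hy : y ^ 5 = 1) :
    x = y := by
  obtain ⟨i, hi⟩ := r.exists_pow (x := x⁻¹ * y) (by rw [map_mul, map_inv, h, inv_mul_cancel])
  have hy' : y = x * r.p ^ i := by rw [← hi, mul_inv_cancel_left]
  have hc : Commute x (r.p ^ i) := ((r.central x).zpow_left i).symm
  have h5 : (r.p ^ i) ^ 5 = 1 := by
    have := hy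
    rwa [hy', hc.mul_pow, hx, one_mul] at this
  have h3 : (r.p ^ i) ^ 3 = 1 := by
    rw [← zpow_natCast, ← zpow_mul, mul_comm, zpow_mul, zpow_natCast, r.cube, one_zpow]
  have : r.p ^ i = 1 := by
    have h6 : (r.p ^ i) ^ 6 = 1 := by rw [show (6:ℕ) = 3 * 2 by rfl, pow_mul, h3, one_pow]
    rwa [pow_succ, h5, one_mul] at h6
  rw [hy', this, mul_one]

theorem exists_lift_two {A : Subgroup M} (hA : ∀ a ∈ A, a * a = 1) {a : M} (ha : a ∈ A) :
    ∃ x, r.proj x = a ∧ x * x = 1 := by
  obtain ⟨y, hy⟩ := r.surj a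
  obtain ⟨i, hi⟩ := r.exists_pow (x := y * y) (by rw [map_mul, hy, hA a ha])
  refine ⟨y ^ 3, by rw [pow_succ, pow_two, map_mul, map_mul, hy, hA a ha, one_mul], ?_⟩
  rw [← pow_add, show 3 + 3 = 2 * 3 by rfl, pow_mul, pow_two, hi, ← zpow_natCast, ← zpow_mul,
    mul_comm, zpow_mul, zpow_natCast, r.cube, one_zpow]

theorem lift_two_unique {x y : X} (h : r.proj x = r.proj y) (hx : x * x = 1) (hy : y * y = 1) :
    x = y := by
  obtain ⟨i, hi⟩ := r.exists_pow (x := x⁻¹ * y) (by rw [map_mul, map_inv, h, inv_mul_cancel])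
  have hy' : y = x * r.p ^ i := by rw [← hi, mul_inv_cancel_left]
  have hc : Commute x (r.p ^ i) := ((r.central x).zpow_left i).symm
  have h2 : (r.p ^ i) ^ 2 = 1 := by
    have := hy
    rw [← pow_two, hy', hc.mul_pow, pow_two x, hx, one_mul] at this
    exact this
  have h3 : (r.p ^ i) ^ 3 = 1 := by
    rw [← zpow_natCast, ← zpow_mul, mul_comm, zpow_mul, zpow_natCast, r.cube, one_zpow]
  rw [pow_succ, h2, one_mul] at h3
  rw [hy', h3, mul_one]

theorem lift_commute {A : Subgroup M} (hA : ∀ a ∈ A, a * a = 1) {x y : X} (hx : r.proj x ∈ A)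
    (hy : r.proj y ∈ A) (hxx : x * x = 1) : Commute x y := by
  have h : r.proj (x * y * x⁻¹ * y⁻¹) = 1 := by
    rw [map_mul, map_mul, map_mul, map_inv, map_inv, comm_of_sq hA hx hy]; group
  obtain ⟨i, hi⟩ := r.exists_pow h
  have hy' : x * y * x⁻¹ = r.p ^ i * y := by rw [← hi]; group
  have hc : Commute x (r.p ^ i) := ((r.central x).zpow_left i).symm
  have h2 : (r.p ^ i) ^ 2 = 1 := by
    have e : x * (x * y * x⁻¹) * x⁻¹ = y := by
      rw [show x * (x * y * x⁻¹) * x⁻¹ = (x * x) * y * (x * x)⁻¹ by group, hxx]; simp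
    rw [hy', ← mul_assoc, hc.eq, mul_assoc (r.p ^ i), mul_assoc (r.p ^ i), hy',
      ← mul_assoc] at e
    rw [pow_two]
    exact mul_eq_right.1 e
  have h3 : (r.p ^ i) ^ 3 = 1 := by
    rw [← zpow_natCast, ← zpow_mul, mul_comm, zpow_mul, zpow_natCast, r.cube, one_zpow]
  rw [pow_succ, h2, one_mul] at h3
  rw [h3, one_mul] at hy'
  exact mul_inv_eq_iff_eq_mul.1 hy'

/-- The elements of square one above a set. -/
def liftSet (A : Subgroup M) : Set X := {x | r.proj x ∈ A ∧ x * x = 1}

/-- The fixed space of an elementary 2-subgroup of `M22`. -/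
def F (A : Subgroup M) : Subgroup W := r.fixed (r.liftSet A)

theorem mem_F_conj {A : Subgroup M} {x : X} {w : W} :
    w ∈ r.F (conjS (r.proj x) A) ↔ r.act x⁻¹ w ∈ r.F A := by
  constructor
  · intro h y ⟨hy, hy2⟩
    have := h (x * y * x⁻¹) ⟨⟨_, hy, by simp [map_mul]⟩, by
      rw [show x * y * x⁻¹ * (x * y * x⁻¹) = x * (y * y) * x⁻¹ by group, hy2]; group⟩
    rw [r.act_mul, r.act_mul] at this
    have h2 := congrArg (r.act x⁻¹) this
    rwa [r.act_inv_act] at h2
  · intro h y ⟨hy, hy2⟩
    rw [mem_conjS] at hy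
    have := h (x⁻¹ * y * x) ⟨by simpa [map_mul] using hy, by
      rw [show x⁻¹ * y * x * (x⁻¹ * y * x) = x⁻¹ * (y * y) * x by group, hy2]; group⟩
    rw [r.act_mul, r.act_mul, r.act_act_inv] at this
    have h2 := congrArg (r.act x) this
    rwa [r.act_act_inv, r.act_act_inv] at h2

theorem card_F_conj (g : M) (A : Subgroup M) : Nat.card (r.F (conjS g A)) = Nat.card (r.F A) := by
  obtain ⟨x, rfl⟩ := r.surj g
  exact Nat.card_congr
    { toFun := fun w => ⟨r.act x⁻¹ w, r.mem_F_conj.1 w.2⟩
      invFun := fun w => ⟨r.act x w, r.mem_F_conj.2 (by rw [r.act_inv_act]; exact w.2)⟩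
      left_inv := fun w => Subtype.ext (r.act_act_inv _ _)
      right_inv := fun w => Subtype.ext (r.act_inv_act _ _) }

theorem F_invariant {A : Subgroup M} {x : X} (h : conjS (r.proj x) A = A) {w : W}
    (hw : w ∈ r.F A) : r.act x w ∈ r.F A := by
  have hiff := r.mem_F_conj (A := A) (x := x) (w := r.act x w)
  rw [h, r.act_inv_act] at hiff
  exact hiff.2 hw

theorem twist_F (g : M) (A : Subgroup M) : (r.twist g).F A = r.F (conjS g A) := by
  have h : (r.twist g).liftSet A = r.liftSet (conjS g A) := by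
    ext x
    simp only [liftSet, Set.mem_setOf_eq, mem_conjS]
    simp [twist]
  show (r.twist g).fixed _ = r.fixed _
  rw [h]
  rfl

/-- A two-subgroup of lifts. -/
def liftSub {A : Subgroup M} (hA : ∀ a ∈ A, a * a = 1) : Subgroup X where
  carrier := r.liftSet A
  one_mem' := ⟨by rw [map_one]; exact one_mem A, one_mul 1⟩
  mul_mem' := fun {a b} ha hb => ⟨by rw [map_mul]; exact mul_mem ha.1 hb.1, by
    rw [(r.lift_commute hA hb.1 ha.1 hb.2).mul_mul_mul_comm, ha.2, hb.2, one_mul]⟩
  inv_mem' := fun {a} ha => by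
    rw [inv_eq_of_mul_eq_one_right ha.2]; exact ha

theorem F_ne_bot {A : Subgroup M} (hA : ∀ a ∈ A, a * a = 1) : r.F A ≠ ⊥ := by
  have := r.finite_W
  have := r.finite_X
  haveI : Fact (Nat.Prime 2) := ⟨Nat.prime_two⟩
  let L := r.liftSub hA
  let _ : MulAction L W :=
    { smul := fun x w => r.act x.1 w
      one_smul := fun w => r.act_one w
      mul_smul := fun x y w => r.act_mul _ _ _ }
  have hL : IsPGroup 2 L := fun x => ⟨1, Subtype.ext (by simpa [pow_two] using x.2.2)⟩
  have h1 : (1 : W) ∈ MulAction.fixedPoints L W := fun x => map_one _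
  obtain ⟨w, hw, hne⟩ := hL.exists_fixed_point_of_prime_dvd_card_of_fixed_point W
    (by rw [r.card]; norm_num) h1
  intro hbot
  have : w ∈ r.F A := fun x hx => hw ⟨x, hx⟩
  rw [hbot, Subgroup.mem_bot] at this
  exact hne this.symm

theorem card_F_le {A : Subgroup M} {g : M} (hA : ∀ a ∈ A, a * a = 1)
    (hg : A ⊔ conjS g A = ⊤) : Nat.card (r.F A) ≤ 64 := by
  have := r.finite_W
  obtain ⟨k, -, hk⟩ := r.exists_le_six (r.pinv_fixed (r.liftSet A))
  by_contra h
  change Nat.card (r.F A) = _ at hk
  have hk4 : 4 ≤ k := by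
    by_contra hk'
    rw [hk] at h
    exact h ((Nat.pow_le_pow_right (by norm_num) (by omega : k ≤ 3)).trans (by norm_num))
  have hle := mul_card_le (A := r.F A) (B := r.F (conjS g A)) (C := ⊤) le_top le_top
  rw [r.card_F_conj, hk, Subgroup.card_top, r.card] at hle
  have hbig : (r.F A ⊓ r.F (conjS g A)) ≠ ⊥ := by
    intro hb
    rw [hb, Subgroup.card_bot, one_mul, ← pow_add] at hle
    have : 4 ^ 8 ≤ 4 ^ (k + k) := Nat.pow_le_pow_right (by norm_num) (by omega)
    have := this.trans hle
    norm_num at this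
  obtain ⟨w, hw, hw1⟩ := (Subgroup.bot_or_exists_ne_one _).resolve_left hbig
  let S : Subgroup X :=
    { carrier := {x | r.act x w = w}
      one_mem' := r.act_one w
      mul_mem' := fun {a b} ha hb => by
        show r.act (a * b) w = w
        rw [r.act_mul]
        rw [Set.mem_setOf_eq] at ha hb
        rw [hb, ha]
      inv_mem' := fun {a} ha => by
        show r.act a⁻¹ w = w
        rw [Set.mem_setOf_eq] at ha
        conv_lhs => rw [← ha]
        exact r.act_inv_act a w }
  have htop : A ⊔ conjS g A ≤ S.map r.proj := by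
    refine sup_le (fun a ha => ?_) (fun a ha => ?_)
    · obtain ⟨x, hx, hx2⟩ := r.exists_lift_two hA ha
      exact ⟨x, hw.1 x ⟨hx ▸ ha, hx2⟩, hx⟩
    · obtain ⟨x, hx, hx2⟩ := r.exists_lift_two (A := conjS g A) (by
        rintro _ ⟨b, hb, rfl⟩
        rw [← map_mul, hA b hb, map_one]) ha
      exact ⟨x, hw.2 x ⟨hx ▸ ha, hx2⟩, hx⟩
  rw [hg] at htop
  have hcl : commutator X ≤ S := by
    rw [commutator_def, Subgroup.commutator_le]
    intro a _ b _
    obtain ⟨a', ha', ea⟩ := htop (Subgroup.mem_top (r.proj a))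
    obtain ⟨b', hb', eb⟩ := htop (Subgroup.mem_top (r.proj b))
    obtain ⟨i, hi⟩ := r.exists_pow (x := a'⁻¹ * a) (by rw [map_mul, map_inv, ea, inv_mul_cancel])
    obtain ⟨j, hj⟩ := r.exists_pow (x := b'⁻¹ * b) (by rw [map_mul, map_inv, eb, inv_mul_cancel])
    rw [inv_mul_eq_iff_eq_mul] at hi hj
    have c1 : ∀ y : X, Commute (r.p ^ i) y := fun y => (r.central y).zpow_left i
    have c2 : ∀ y : X, Commute (r.p ^ j) y := fun y => (r.central y).zpow_left j
    rw [hi, hj, show ⁅a' * r.p ^ i, b' * r.p ^ j⁆ = ⁅a', b'⁆ by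
      rw [commutatorElement_def, commutatorElement_def, mul_inv_rev, mul_inv_rev]
      calc a' * r.p ^ i * (b' * r.p ^ j) * ((r.p ^ i)⁻¹ * a'⁻¹) * ((r.p ^ j)⁻¹ * b'⁻¹)
          = a' * (r.p ^ i * (b' * r.p ^ j)) * (r.p ^ i)⁻¹ * a'⁻¹ * (r.p ^ j)⁻¹ * b'⁻¹ := by
            group
        _ = a' * b' * (r.p ^ j * a'⁻¹) * (r.p ^ j)⁻¹ * b'⁻¹ := by rw [(c1 _).eq]; group
        _ = a' * b' * a'⁻¹ * b'⁻¹ := by rw [(c2 _).eq]; group]
    exact mul_mem (mul_mem (mul_mem ha' hb') (inv_mem ha')) (inv_mem hb')
  exact hw1 (r.fpf w (hcl r.derived))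

/-- The certificate at the first subgroup forces the central element into any subgroup
containing the conjugates of the lift of the element of order five. -/
theorem exists_sylow_three : ∃ (R : Sylow 3 X) (x y : M), x * y = y * x ∧
    (∀ a ∈ (R : Subgroup X), r.proj a ∈ Subgroup.closure {x, y}) ∧
    ∃ u : M, ∃ N : Set M, conjS u hex = hex ∧ orderOf u = 5 ∧ u = el hexFive ∧
      (∀ n ∈ N, conjS n hex = hex) ∧ x ∈ Subgroup.closure ((fun n => n * u * n⁻¹) '' N) ∧
      y ∈ Subgroup.closure ((fun n => n * u * n⁻¹) '' N) := by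
  have := r.finite_X
  obtain ⟨u, x, y, N, hu, hu5, hueq, hN, hx, hy, hxy, hox, hoy, hyx, hyx2⟩ := hex_five
  haveI : Fact (Nat.Prime 3) := ⟨Nat.prime_three⟩
  set R₀ := (Subgroup.closure {x, y}).comap r.proj
  have hcl : IsPGroup 3 ↥(Subgroup.closure {x, y}) := by
    intro a
    refine ⟨1, Subtype.ext ?_⟩
    have hm : ∀ b ∈ Subgroup.closure {x, y}, ∃ i j : ℤ, b = x ^ i * y ^ j := by
      intro b hb
      refine Subgroup.closure_induction (p := fun b _ => ∃ i j : ℤ, b = x ^ i * y ^ j)
        ?_ ⟨0, 0, by simp⟩ ?_ ?_ hb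
      · rintro b (rfl | rfl)
        exacts [⟨1, 0, by simp⟩, ⟨0, 1, by simp⟩]
      · rintro _ _ _ _ ⟨i, j, rfl⟩ ⟨i', j', rfl⟩
        refine ⟨i + i', j + j', ?_⟩
        have hc : Commute (y ^ j) (x ^ i') := (Commute.zpow_zpow hxy.symm j i')
        rw [mul_assoc, ← mul_assoc (y ^ j), hc.eq, zpow_add, zpow_add]; group
      · rintro _ _ ⟨i, j, rfl⟩
        refine ⟨-i, -j, ?_⟩
        rw [mul_inv_rev, ← zpow_neg, ← zpow_neg]
        exact (Commute.zpow_zpow hxy.symm _ _).eq
    obtain ⟨i, j, hb⟩ := hm a.1 a.2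
    rw [pow_one, SubmonoidClass.coe_pow, hb, (Commute.zpow_zpow hxy i j).mul_pow,
      ← zpow_natCast, ← zpow_mul, mul_comm, zpow_mul, zpow_natCast,
      show x ^ 3 = 1 from hox ▸ pow_orderOf_eq_one x, one_zpow, one_mul, ← zpow_natCast,
      ← zpow_mul, mul_comm, zpow_mul, zpow_natCast,
      show y ^ 3 = 1 from hoy ▸ pow_orderOf_eq_one y, one_zpow]
    rfl
  obtain ⟨e, he⟩ := IsPGroup.iff_card.1 hcl
  have hdvd : 3 ^ e ∣ 443520 := by
    rw [← he, ← CfsgLib.Mathieu.card_M22]; exact Subgroup.card_subgroup_dvd_card _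
  have he2 : e = 2 := by
    have hle : e ≤ 2 := by
      by_contra h
      have := (pow_dvd_pow 3 (by omega : 3 ≤ e)).trans hdvd
      norm_num at this
    have hge : 4 ≤ 3 ^ e := by
      rw [← he]
      let f : Fin 4 → ↥(Subgroup.closure {x, y}) :=
        ![1, ⟨x, Subgroup.subset_closure (by simp)⟩,
          ⟨x * x, mul_mem (Subgroup.subset_closure (by simp)) (Subgroup.subset_closure (by simp))⟩,
          ⟨y, Subgroup.subset_closure (by simp)⟩]
      have hx1 : x ≠ 1 := fun h => by rw [h, orderOf_one] at hox; norm_num at hox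
      have hy1 : y ≠ 1 := fun h => by rw [h, orderOf_one] at hoy; norm_num at hoy
      have hxx : x * x ≠ 1 := fun h => by
        have := orderOf_dvd_of_pow_eq_one (n := 2) (x := x) (by rw [pow_two, h])
        rw [hox] at this; norm_num at this
      have hf : Function.Injective f := by
        intro a b hab
        have h := congrArg Subtype.val hab
        fin_cases a <;> fin_cases b <;> first | rfl |
          (exfalso; simp [f] at h; first
            | exact hx1 h | exact hx1 h.symm | exact hy1 h | exact hy1 h.symm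
            | exact hxx h | exact hxx h.symm | exact hyx h | exact hyx h.symm
            | exact hyx2 h | exact hyx2 h.symm)
      simpa using Nat.card_le_card_of_injective f hf
    rcases Nat.lt_or_ge e 2 with h | h
    · have := hge.trans (Nat.pow_le_pow_right (by norm_num) (Nat.le_of_lt_succ h))
      norm_num at this
    · omega
  have hcard : Nat.card R₀ = 27 := by rw [r.card_comap, he, he2]; norm_num
  have hX : Nat.card X = 27 * 49280 := by
    have := r.card_comap ⊤
    rw [Subgroup.comap_top, Subgroup.card_top, Subgroup.card_top, CfsgLib.Mathieu.card_M22] at this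
    rw [this]
  have hfac : (27 * 49280 : ℕ).factorization 3 = 3 := by
    rw [show (27 : ℕ) = 3 ^ 3 by norm_num, Nat.factorization_mul (by norm_num) (by norm_num),
      Nat.Prime.factorization_pow Nat.prime_three]
    simp [Nat.factorization_eq_zero_of_not_dvd (by norm_num : ¬(3 ∣ 49280))]
  exact ⟨Sylow.ofCard R₀ (by rw [hcard, hX, hfac]; norm_num), x, y, hxy, fun a ha => ha,
    u, N, hu, hu5, hueq, hN, hx, hy⟩

theorem p_mem_of_conjugates {u : X} {K : Subgroup X} {x y : M} {R : Sylow 3 X} {N : Set M}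
    (hR : ∀ a ∈ (R : Subgroup X), r.proj a ∈ Subgroup.closure {x, y})
    (hK : ∀ n ∈ N, ∃ m, r.proj m = n ∧ m * u * m⁻¹ ∈ K)
    (hx : x ∈ Subgroup.closure ((fun n => n * r.proj u * n⁻¹) '' N))
    (hy : y ∈ Subgroup.closure ((fun n => n * r.proj u * n⁻¹) '' N)) : r.p ∈ K := by
  have hle : Subgroup.closure ((fun n => n * r.proj u * n⁻¹) '' N) ≤ K.map r.proj := by
    rw [Subgroup.closure_le]
    rintro _ ⟨n, hn, rfl⟩
    obtain ⟨m, rfl, hm⟩ := hK n hn
    exact ⟨_, hm, by simp⟩
  have hxy : Subgroup.closure {x, y} ≤ K.map r.proj := by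
    rw [Subgroup.closure_le]
    rintro b (rfl | rfl)
    exacts [hle hx, hle hy]
  have hc : ⁅(R : Subgroup X), (R : Subgroup X)⁆ ≤ K := by
    rw [Subgroup.commutator_le]
    intro a ha b hb
    obtain ⟨a', ha', ea⟩ := hxy (hR a ha)
    obtain ⟨b', hb', eb⟩ := hxy (hR b hb)
    obtain ⟨i, hi⟩ := r.exists_pow (x := a'⁻¹ * a) (by rw [map_mul, map_inv, ea, inv_mul_cancel])
    obtain ⟨j, hj⟩ := r.exists_pow (x := b'⁻¹ * b) (by rw [map_mul, map_inv, eb, inv_mul_cancel])
    rw [inv_mul_eq_iff_eq_mul] at hi hj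
    have c1 : ∀ y : X, Commute (r.p ^ i) y := fun y => (r.central y).zpow_left i
    have c2 : ∀ y : X, Commute (r.p ^ j) y := fun y => (r.central y).zpow_left j
    rw [hi, hj, show ⁅a' * r.p ^ i, b' * r.p ^ j⁆ = ⁅a', b'⁆ by
      rw [commutatorElement_def, commutatorElement_def, mul_inv_rev, mul_inv_rev]
      calc a' * r.p ^ i * (b' * r.p ^ j) * ((r.p ^ i)⁻¹ * a'⁻¹) * ((r.p ^ j)⁻¹ * b'⁻¹)
          = a' * (r.p ^ i * (b' * r.p ^ j)) * (r.p ^ i)⁻¹ * a'⁻¹ * (r.p ^ j)⁻¹ * b'⁻¹ := by
            group
        _ = a' * b' * (r.p ^ j * a'⁻¹) * (r.p ^ j)⁻¹ * b'⁻¹ := by rw [(c1 _).eq]; group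
        _ = a' * b' * a'⁻¹ * b'⁻¹ := by rw [(c2 _).eq]; group]
    exact mul_mem (mul_mem (mul_mem ha' hb') (inv_mem ha')) (inv_mem hb')
  exact hc (r.p_mem_commutator R)

/-- A nontrivial subgroup of the first fixed space invariant under its normaliser is large. -/
theorem hex_min {S : Subgroup W}
    (hS : ∀ x, conjS (r.proj x) hex = hex → ∀ w ∈ S, r.act x w ∈ S) (hne : S ≠ ⊥) :
    64 ≤ Nat.card S := by
  have := r.finite_X
  obtain ⟨R, x, y, -, hR, u, N, hu, -, -, hN, hx, hy⟩ := r.exists_sylow_three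
  refine r.card_ge_of_threeGroup R.isPGroup' (r.p_mem_commutator R) (fun a ha => hS a ?_) hne
  have hle : ∀ b ∈ Subgroup.closure ((fun n => n * u * n⁻¹) '' N), conjS b hex = hex := by
    intro b hb
    have hstab : Subgroup.closure ((fun n => n * u * n⁻¹) '' N) ≤
        Subgroup.normalizer (hex : Set M) := by
      have key : ∀ g : M, conjS g hex = hex → g ∈ Subgroup.normalizer (hex : Set M) := fun g hg =>
        Subgroup.mem_normalizer_iff.2 fun h => by
          conv_rhs => rw [← hg]
          simp [mem_conjS, mul_assoc]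
      rw [Subgroup.closure_le]
      rintro _ ⟨n, hn, rfl⟩
      exact mul_mem (mul_mem (key n (hN n hn)) (key u hu)) (inv_mem (key n (hN n hn)))
    have h := Subgroup.mem_normalizer_iff.1 (hstab hb)
    ext c
    rw [mem_conjS]
    have := h (b⁻¹ * c * b)
    simpa [mul_assoc] using this
  apply hle
  exact (Subgroup.closure_le _).2 (by rintro b (rfl | rfl) <;> assumption) (hR a ha)

theorem card_F_hex : Nat.card (r.F hex) = 64 := by
  obtain ⟨g, hg⟩ := hex_gen
  exact le_antisymm (r.card_F_le sq_hex hg)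
    (r.hex_min (fun x hx w hw => r.F_invariant hx hw) (r.F_ne_bot sq_hex))

/-- The lift of the certificate element of order five fixes at most sixteen vectors. -/
theorem five_bound : ∃ u : X, r.proj u = el hexFive ∧ u ^ 5 = 1 ∧
    Nat.card (r.fixed {u}) ≤ 16 := by
  have := r.finite_W
  obtain ⟨R, x, y, -, hR, m, N, hm, hm5, hmeq, hN, hx, hy⟩ := r.exists_sylow_three
  obtain ⟨u, hu, hu5⟩ := r.exists_lift_five (m := m) (hm5 ▸ pow_orderOf_eq_one m)
  refine ⟨u, hu.trans hmeq, hu5, ?_⟩
  rw [← hu] at hx hy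
  set S := r.F hex
  have hSu : ∀ w ∈ S, r.act u w ∈ S := fun w hw => r.F_invariant (hu ▸ hm) hw
  have hSn : ∀ n ∈ N, ∀ z, r.proj z = n → ∀ w ∈ S, r.act z w ∈ S ∧ r.act z⁻¹ w ∈ S := by
    intro n hn z hz w hw
    refine ⟨r.F_invariant (hz ▸ hN n hn) hw, ?_⟩
    have hiff := r.mem_F_conj (A := hex) (x := z) (w := w)
    rw [hz, hN n hn] at hiff
    exact hiff.1 hw
  have hPI : r.PInv S := r.pinv_fixed _
  have hC : Nat.card ↥(S ⊓ r.fixed {u}) = 4 := by
    have h := r.card_fixed_modEq S u hSu (q := 5) (n := 1) (by norm_num) (by rwa [pow_one])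
    obtain ⟨k, -, hk⟩ := r.exists_le_six (r.pinv_inf hPI (r.pinv_fixed {u}))
    have hle := Subgroup.card_le_of_le (inf_le_left : S ⊓ r.fixed {u} ≤ S)
    rw [r.card_F_hex] at h hle
    rw [hk] at h hle ⊢
    have hk3 : k ≤ 3 := by
      by_contra h'
      have := (Nat.pow_le_pow_right (by norm_num : 0 < 4) (by omega : 4 ≤ k)).trans hle
      norm_num at this
    interval_cases k
    · simp [Nat.ModEq] at h
    · rfl
    · simp [Nat.ModEq] at h
    · exfalso
      have hall : S ⊓ r.fixed {u} = S :=
        Subgroup.eq_of_le_of_card_ge inf_le_left (by rw [r.card_F_hex, hk]; norm_num)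
      let K : Subgroup X :=
        { carrier := {a | ∀ w ∈ S, r.act a w = w}
          one_mem' := fun w _ => r.act_one w
          mul_mem' := fun {a b} ha hb w hw => by rw [r.act_mul, hb w hw, ha w hw]
          inv_mem' := fun {a} ha w hw => by
            conv_lhs => rw [← ha w hw]
            exact r.act_inv_act a w }
      have hK : ∀ n ∈ N, ∃ z, r.proj z = n ∧ z * u * z⁻¹ ∈ K := fun n hn => by
        obtain ⟨z, hz⟩ := r.surj n
        refine ⟨z, hz, fun w hw => ?_⟩
        have hwu : r.act z⁻¹ w ∈ S ⊓ r.fixed {u} := hall.symm ▸ (hSn n hn z hz w hw).2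
        rw [r.act_mul, r.act_mul, r.mem_fixed_single.1 hwu.2, r.act_act_inv]
      have hp : ∀ w ∈ S, r.act r.p w = w := r.p_mem_of_conjugates hR hK hx hy
      have : S = ⊥ := eq_bot_iff.2 fun w hw => Subgroup.mem_bot.2 (r.fpf w (hp w hw))
      exact r.F_ne_bot sq_hex this
  let Q : Subgroup W :=
    { carrier := {w | r.act u w * w ∈ S}
      one_mem' := by simp
      mul_mem' := fun {a b} ha hb => by
        show r.act u (a * b) * (a * b) ∈ S
        rw [map_mul, show r.act u a * r.act u b * (a * b) = r.act u a * a * (r.act u b * b) by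
          rw [mul_assoc, ← mul_assoc (r.act u b), r.comm (r.act u b) a]; group]
        exact mul_mem ha hb
      inv_mem' := fun {a} ha => by rw [r.inv_eq]; exact ha }
  have hSQ : S ≤ Q := fun w hw => mul_mem (hSu w hw) hw
  have hQ : r.PInv Q := fun w hw => by
    show r.act u (r.act r.p w) * r.act r.p w ∈ S
    rw [r.act_comm, ← map_mul]
    exact hPI _ hw
  have hQcard : Nat.card Q = 256 := by
    let f : W ⧸ S → W ⧸ S := Quotient.map' (fun w => r.act u w) fun a b hab => by
      rw [QuotientGroup.leftRel_apply] at hab ⊢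
      rw [← map_inv, ← map_mul]
      exact hSu _ hab
    have hit : ∀ (k : ℕ) (w : W), f^[k] (QuotientGroup.mk w) =
        QuotientGroup.mk (r.act (u ^ k) w) := by
      intro k w
      induction k with
      | zero => rw [pow_zero, r.act_one]; rfl
      | succ k ih => rw [Function.iterate_succ_apply', ih, pow_succ', r.act_mul]; rfl
    have h := card_modEq f (q := 5) (n := 1) (by norm_num) fun a => by
      induction a using QuotientGroup.induction_on with
      | H w => rw [hit, pow_one, hu5, r.act_one]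
    have hpre : (QuotientGroup.mk : W → W ⧸ S) ⁻¹' {a | f a = a} = (Q : Set W) := by
      ext w
      show (QuotientGroup.mk (r.act u w) = (QuotientGroup.mk w : W ⧸ S)) ↔ r.act u w * w ∈ S
      rw [QuotientGroup.eq, r.inv_eq]
    have hcard : Nat.card Q = 64 * Nat.card {a : W ⧸ S // f a = a} := by
      have := Nat.card_congr (QuotientGroup.preimageMkEquivSubgroupProdSet S {a | f a = a})
      rw [hpre, Nat.card_prod, r.card_F_hex] at this
      exact this
    have hWS : Nat.card (W ⧸ S) = 64 := by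
      have := Subgroup.card_eq_card_quotient_mul_card_subgroup S
      rw [r.card, r.card_F_hex] at this
      norm_num at this
      omega
    obtain ⟨k, hk6, hk⟩ := r.exists_le_six hQ
    rw [hWS] at h
    rw [hk] at hcard ⊢
    unfold Nat.ModEq at h
    interval_cases k
    · norm_num at hcard; omega
    · norm_num at hcard; omega
    · norm_num at hcard; omega
    · norm_num at hcard; rw [show Nat.card {a : W ⧸ S // f a = a} = 1 by omega] at h; norm_num at h
    · rfl
    · norm_num at hcard; rw [show Nat.card {a : W ⧸ S // f a = a} = 16 by omega] at h; norm_num at h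
    · exfalso
      have hQtop : Q = ⊤ := Subgroup.eq_top_of_card_eq Q (by rw [hk, r.card]; norm_num)
      let K : Subgroup X :=
        { carrier := {a | ∀ w, r.act a w * w ∈ S}
          one_mem' := fun w => by rw [r.act_one, r.sq]; exact one_mem S
          mul_mem' := fun {a b} ha hb w => by
            have := mul_mem (ha (r.act b w)) (hb w)
            rw [mul_assoc, ← mul_assoc (r.act b w), r.sq, one_mul, ← r.act_mul] at this
            exact this
          inv_mem' := fun {a} ha w => by
            have := ha (r.act a⁻¹ w)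
            rw [r.act_act_inv, r.comm] at this
            exact this }
      have hK : ∀ n ∈ N, ∃ z, r.proj z = n ∧ z * u * z⁻¹ ∈ K := fun n hn => by
        obtain ⟨z, hz⟩ := r.surj n
        refine ⟨z, hz, fun w => ?_⟩
        have h1 : r.act z⁻¹ w ∈ Q := hQtop ▸ Subgroup.mem_top _
        have h2 := (hSn n hn z hz _ h1).1
        rw [map_mul, r.act_act_inv, ← r.act_mul, ← r.act_mul] at h2
        exact h2
      have hp : ∀ w, r.act r.p w * w ∈ S := r.p_mem_of_conjugates hR hK hx hy
      have hStop : (⊤ : Subgroup W) ≤ S := by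
        intro w _
        have hfix : w * r.act r.p w * r.act r.p (r.act r.p w) = 1 := by
          apply r.fpf
          rw [map_mul, map_mul]
          have h3 : r.act r.p (r.act r.p (r.act r.p w)) = w := by
            rw [← r.act_mul, ← r.act_mul, ← pow_three', r.cube, r.act_one]
          rw [h3, r.comm _ w, ← mul_assoc]
        have h1 : w * r.act r.p w ∈ S := by rw [r.comm]; exact hp w
        have h2 : r.act r.p (r.act r.p w) ∈ S := by
          have := inv_mem h1
          rwa [inv_eq_of_mul_eq_one_right hfix] at this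
        have h4 : r.act r.p w ∈ S := by
          have := hPI _ h2
          rw [← r.act_mul, ← r.act_mul, ← pow_three', r.cube, r.act_one]
            at this
          exact hPI _ this
        have := mul_mem h1 h4
        rwa [mul_assoc, r.sq, mul_one] at this
      have := Subgroup.card_le_of_le hStop
      rw [Subgroup.card_top, r.card, r.card_F_hex] at this
      norm_num at this
  have hCQ : r.fixed {u} ≤ Q := fun w hw => by
    show r.act u w * w ∈ S
    rw [r.mem_fixed_single.1 hw, r.sq]; exact one_mem S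
  have := mul_card_le hCQ hSQ
  rw [inf_comm, hC, hQcard, r.card_F_hex] at this
  omega

theorem card_F_duad : Nat.card (r.F duad) ≠ 64 := by
  intro h64
  have := r.finite_W
  obtain ⟨u₀, hu₀, hu₀5, hbd⟩ := r.five_bound
  obtain ⟨m', n, hv, hn, hn4, hrel⟩ := duad_five _ hu₀
  obtain ⟨z, hz⟩ := r.surj m'
  obtain ⟨u, hudef⟩ : ∃ u, u = z * u₀ * z⁻¹ := ⟨_, rfl⟩
  have hu : r.proj u = m' * r.proj u₀ * m'⁻¹ := by simp [hudef, hz]
  rw [← hu] at hv hrel
  have hu5 : u ^ 5 = 1 := by
    simp only [hudef, conj_pow, hu₀5, mul_one, mul_inv_cancel]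
  obtain ⟨y, hy⟩ := r.surj n
  set m := y ^ 9
  have hm : r.proj m = n := by
    rw [map_pow, hy, show 9 = 4 * 2 + 1 by rfl, pow_succ, pow_mul, hn4, one_pow, one_mul]
  have hm4 : m ^ 4 = 1 := by
    obtain ⟨i, hi⟩ := r.exists_pow (x := y ^ 4) (by rw [map_pow, hy, hn4])
    rw [← pow_mul, show 9 * 4 = 4 * 9 by rfl, pow_mul, hi, ← zpow_natCast, ← zpow_mul, mul_comm,
      zpow_mul, zpow_natCast, show r.p ^ 9 = 1 by rw [show (9:ℕ) = 3 * 3 by rfl, pow_mul, r.cube,
      one_pow], one_zpow]
  have hmu : m * u * m⁻¹ = u * u := by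
    refine r.lift_five_unique ?_ ?_ ?_
    · rw [map_mul, map_mul, map_inv, map_mul, hm, hrel]
    · rw [conj_pow, hu5, mul_one, mul_inv_cancel]
    · rw [← pow_two, ← pow_mul, show 2 * 5 = 5 * 2 by rfl, pow_mul, hu5, one_pow]
  set S := r.F duad
  have hSu : ∀ w ∈ S, r.act u w ∈ S := fun w hw => r.F_invariant hv hw
  have hSm : ∀ w ∈ S, r.act m w ∈ S := fun w hw => r.F_invariant (hm.symm ▸ hn) hw
  have hPI : r.PInv S := r.pinv_fixed _
  have hfixu : Nat.card (r.fixed {u}) ≤ 16 := by
    refine le_trans (le_of_eq (Nat.card_congr ?_)) hbd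
    exact
      { toFun := fun w => ⟨r.act z⁻¹ w, r.mem_fixed_single.2 (by
          have := r.mem_fixed_single.1 w.2
          simp only [hudef, r.act_mul] at this
          have h2 := congrArg (r.act z⁻¹) this
          rwa [r.act_inv_act] at h2)⟩
        invFun := fun w => ⟨r.act z w, r.mem_fixed_single.2 (by
          simp only [hudef, r.act_mul]
          rw [r.act_inv_act, r.mem_fixed_single.1 w.2])⟩
        left_inv := fun w => Subtype.ext (r.act_act_inv _ _)
        right_inv := fun w => Subtype.ext (r.act_inv_act _ _) }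
  have hC : Nat.card ↥(S ⊓ r.fixed {u}) = 4 := by
    have h := r.card_fixed_modEq S u hSu (q := 5) (n := 1) (by norm_num) (by rwa [pow_one])
    obtain ⟨k, -, hk⟩ := r.exists_le_six (r.pinv_inf hPI (r.pinv_fixed {u}))
    have hle := (Subgroup.card_le_of_le (inf_le_right : S ⊓ r.fixed {u} ≤ r.fixed {u})).trans hfixu
    rw [h64] at h
    rw [hk] at h hle ⊢
    have hk3 : k ≤ 2 := by
      by_contra h'
      have := (Nat.pow_le_pow_right (by norm_num : 0 < 4) (by omega : 3 ≤ k)).trans hle
      norm_num at this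
    interval_cases k
    · simp [Nat.ModEq] at h
    · rfl
    · simp [Nat.ModEq] at h
  let δ : ↥S →* W :=
    { toFun := fun w => r.act u w * w
      map_one' := by simp
      map_mul' := fun a b => by
        show r.act u (a.1 * b.1) * (a.1 * b.1) = _
        rw [map_mul, mul_assoc, ← mul_assoc (r.act u b.1), r.comm (r.act u b.1) a.1]; group }
  set V := δ.range
  have hV : Nat.card V = 16 := by
    have hk : Nat.card δ.ker = 4 := by
      rw [← hC]
      exact Nat.card_congr
        { toFun := fun w => ⟨w.1.1, w.1.2, r.mem_fixed_single.2 (by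
            have := w.2
            rw [MonoidHom.mem_ker] at this
            change r.act u w.1.1 * w.1.1 = 1 at this
            exact (eq_inv_of_mul_eq_one_left this).trans (r.inv_eq _))⟩
          invFun := fun w => ⟨⟨w.1, w.2.1⟩, by
            show r.act u w.1 * w.1 = 1
            rw [r.mem_fixed_single.1 w.2.2, r.sq]⟩
          left_inv := fun _ => rfl
          right_inv := fun _ => rfl }
    have h := Subgroup.card_mul_index δ.ker
    rw [Subgroup.index_ker, hk, h64] at h
    change 4 * Nat.card V = 64 at h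
    omega
  have hVS : V ≤ S := by rintro _ ⟨a, rfl⟩; exact mul_mem (hSu _ a.2) a.2
  have hVp : r.PInv V := by
    rintro _ ⟨a, rfl⟩
    exact ⟨⟨r.act r.p a, hPI _ a.2⟩, by
      show r.act u (r.act r.p a) * r.act r.p a = r.act r.p (r.act u a * a)
      rw [r.act_comm, map_mul]⟩
  have hVm : ∀ w ∈ V, r.act m w ∈ V := by
    rintro _ ⟨a, rfl⟩
    refine ⟨⟨r.act u (r.act m a) * r.act m a, mul_mem (hSu _ (hSm _ a.2)) (hSm _ a.2)⟩, ?_⟩
    show r.act u (r.act u (r.act m a) * r.act m a) * (r.act u (r.act m a) * r.act m a) =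
      r.act m (r.act u a * a)
    rw [map_mul, map_mul, mul_assoc, ← mul_assoc (r.act u (r.act m a)), r.sq, one_mul,
      ← r.act_mul u u, ← r.act_mul m u, ← hmu, ← r.act_mul (m * u * m⁻¹), inv_mul_cancel_right]
  have hfix2 : ∀ v ∈ V, r.act (m * m) v = v := by
    let δm : ↥V →* W :=
      { toFun := fun w => r.act m w * w
        map_one' := by simp
        map_mul' := fun a b => by
          show r.act m (a.1 * b.1) * (a.1 * b.1) = _
          rw [map_mul, mul_assoc, ← mul_assoc (r.act m b.1), r.comm (r.act m b.1) a.1]; group }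
    set I := δm.range
    have hIV : I ≤ V := by rintro _ ⟨a, rfl⟩; exact mul_mem (hVm _ a.2) a.2
    have hIp : r.PInv I := by
      rintro _ ⟨a, rfl⟩
      exact ⟨⟨r.act r.p a, hVp _ a.2⟩, by
        show r.act m (r.act r.p a) * r.act r.p a = r.act r.p (r.act m a * a)
        rw [r.act_comm, map_mul]⟩
    have hIm : ∀ w ∈ I, r.act m w ∈ I := by
      rintro _ ⟨a, rfl⟩
      exact ⟨⟨r.act m a, hVm _ a.2⟩, by
        show r.act m (r.act m a) * r.act m a = r.act m (r.act m a * a)
        rw [map_mul]⟩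
    set L := V ⊓ r.fixed {m}
    have hLcard : Nat.card L * Nat.card I = 16 := by
      have hk : Nat.card δm.ker = Nat.card L := Nat.card_congr
        { toFun := fun w => ⟨w.1.1, w.1.2, r.mem_fixed_single.2 (by
            have := w.2
            rw [MonoidHom.mem_ker] at this
            change r.act m w.1.1 * w.1.1 = 1 at this
            exact (eq_inv_of_mul_eq_one_left this).trans (r.inv_eq _))⟩
          invFun := fun w => ⟨⟨w.1, w.2.1⟩, by
            show r.act m w.1 * w.1 = 1
            rw [r.mem_fixed_single.1 w.2.2, r.sq]⟩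
          left_inv := fun _ => rfl
          right_inv := fun _ => rfl }
      have h := Subgroup.card_mul_index δm.ker
      rw [Subgroup.index_ker, hk, hV] at h
      exact h
    have hI : ∀ w ∈ I, r.act m w = w := by
      have hL := r.card_fixed_modEq V m hVm Nat.prime_two (n := 2) hm4
      rw [hV] at hL
      obtain ⟨l, -, hl⟩ := r.exists_le_six (r.pinv_inf hVp (r.pinv_fixed {m}))
      have hl1 : 4 ≤ Nat.card L := by
        rcases l with _ | l
        · exfalso
          change Nat.card L = _ at hl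
          rw [hl, pow_zero] at hL
          simp [Nat.ModEq] at hL
        · rw [hl]; exact Nat.le_self_pow (by omega) 4
      obtain ⟨j, -, hj⟩ := r.exists_le_six (r.pinv_inf hIp (r.pinv_fixed {m}))
      obtain ⟨i, -, hi⟩ := r.exists_le_six hIp
      have hJ := r.card_fixed_modEq I m hIm Nat.prime_two (n := 2) hm4
      have hI4 : Nat.card I ≤ 4 := by
        by_contra h
        have := Nat.mul_le_mul hl1 (show 5 ≤ Nat.card I by omega)
        omega
      have hjle := Subgroup.card_le_of_le (inf_le_left : I ⊓ r.fixed {m} ≤ I)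
      rw [hi, hj] at hJ hjle
      have hij : j = i := by
        have h1 : j ≤ i := (Nat.pow_le_pow_iff_right (by norm_num)).1 hjle
        rw [hi] at hI4
        have h2 : i ≤ 1 := (Nat.pow_le_pow_iff_right (by norm_num : 1 < 4)).1 (by simpa using hI4)
        interval_cases i <;> interval_cases j <;> simp [Nat.ModEq] at hJ ⊢
      have : I ⊓ r.fixed {m} = I :=
        Subgroup.eq_of_le_of_card_ge inf_le_left (by rw [hi, hj, hij])
      intro w hw
      rw [← this] at hw
      exact r.mem_fixed_single.1 hw.2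
    intro v hv
    have := hI (r.act m v * v) ⟨⟨v, hv⟩, rfl⟩
    rw [map_mul, r.comm (r.act m (r.act m v))] at this
    rw [r.act_mul]
    exact mul_left_cancel this
  have huV : ∀ w ∈ V, r.act u w ∈ V := by
    rintro _ ⟨a, rfl⟩
    exact ⟨⟨r.act u a, hSu _ a.2⟩, by
      show r.act u (r.act u a) * r.act u a = r.act u (r.act u a * a)
      rw [map_mul]⟩
  have hu4 : u ^ 4 = (m * m) * u * (m * m)⁻¹ := by
    rw [show (m * m) * u * (m * m)⁻¹ = m * (m * u * m⁻¹) * m⁻¹ by group, hmu,
      show m * (u * u) * m⁻¹ = (m * u * m⁻¹) * (m * u * m⁻¹) by group, hmu, pow_succ, pow_succ,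
      pow_two]
    group
  have huW : ∀ v ∈ V, r.act u v = v := by
    intro v hv
    have h1 : r.act (m * m)⁻¹ v = v := by
      conv_lhs => rw [← hfix2 v hv]
      exact r.act_inv_act _ _
    have h4 : r.act (u ^ 4) v = r.act u v := by
      rw [hu4, r.act_mul, r.act_mul, h1, hfix2 _ (huV v hv)]
    have h5 := congrArg (r.act u) h4
    rw [← r.act_mul, ← pow_succ', hu5, r.act_one, ← r.act_mul, ← pow_two] at h5
    let _ : MulAction X W :=
      { smul := fun x w => r.act x w
        one_smul := fun w => r.act_one w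
        mul_smul := fun x y w => r.act_mul x y w }
    exact fix_of_cube_fifth (a := v) hu5 h5.symm
  have hall : S ≤ r.fixed {u} := by
    intro w hw
    have := huW _ ⟨⟨w, hw⟩, rfl⟩
    change r.act u (r.act u w * w) = r.act u w * w at this
    rw [map_mul, r.comm (r.act u (r.act u w))] at this
    have h2 := mul_left_cancel this
    let _ : MulAction X W :=
      { smul := fun x w => r.act x w
        one_smul := fun w => r.act_one w
        mul_smul := fun x y w => r.act_mul x y w }
    exact r.mem_fixed_single.2 (fix_of_cube_fifth (a := w) hu5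
      (by show r.act (u ^ 2) w = w; rw [pow_two, r.act_mul]; exact h2))
  have := (Subgroup.card_le_of_le hall).trans hfixu
  omega

end Rep

end CfsgLib.J4Type67
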