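import Cfsg.Prelude.Def_JankoFourType
import Cfsg.Agent.J4Type67.Elementary
import Cfsg.Agent.PGroup.Frattini

/-!
The setup attached to a group of Janko-four type, and the passage from the centraliser to the
whole group.
-/

set_option autoImplicit false

namespace CfsgLib.J4Type67

open scoped Pointwise commutatorElement

universe u

/-- The transport of the uniqueness statement along an injective homomorphism. -/
theorem existsUnique_map {H G : Type*} [Group H] [Group G] (f : H →* G)
    (hf : Function.Injective f) (T : Subgroup H)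
    (h : ∃! V : Subgroup H, V ≤ T ∧ ((∀ a ∈ V, ∀ b ∈ V, a * b = b * a) ∧ ∀ a ∈ V, a * a = 1) ∧
      Nat.card V = 2 ^ 11) :
    ∃! V : Subgroup G, V ≤ T.map f ∧ Cfsg.IsElementaryAbelian 2 V ∧ Nat.card ↥V = 2 ^ 11 := by
  obtain ⟨V, ⟨hVT, ⟨hc, hs⟩, hV⟩, huniq⟩ := h
  refine ⟨V.map f, ⟨Subgroup.map_mono hVT, ⟨?_, ?_⟩, ?_⟩, ?_⟩
  · constructor
    constructor
    rintro ⟨_, a, ha, rfl⟩ ⟨_, b, hb, rfl⟩
    apply Subtype.ext
    show f a * f b = f b * f a
    rw [← map_mul, hc a ha b hb, map_mul]
  · rintro _ ⟨a, ha, rfl⟩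
    rw [pow_two, ← map_mul, hs a ha, map_one]
  · rw [Subgroup.card_map_of_injective hf, hV]
  · rintro W ⟨hWT, ⟨hWc, hWs⟩, hW⟩
    have hr : W ≤ f.range := fun x hx => by
      obtain ⟨t, -, rfl⟩ := hWT hx
      exact ⟨t, rfl⟩
    have he : (W.comap f).map f = W := Subgroup.map_comap_eq_self hr
    rw [← he, huniq (W.comap f) ⟨?_, ⟨?_, ?_⟩, ?_⟩]
    · intro x hx
      obtain ⟨t, ht, e⟩ := hWT hx
      exact hf e ▸ ht
    · intro a ha b hb
      apply hf
      rw [map_mul, map_mul]
      exact congrArg Subtype.val (hWc.is_comm.comm (⟨f a, ha⟩ : W) ⟨f b, hb⟩)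
    · intro a ha
      apply hf
      rw [map_mul, map_one, ← pow_two]
      exact hWs _ ha
    · rw [← Subgroup.card_map_of_injective hf, he, hW]

variable {G : Type u} [Group G] [Finite G] {z : G} {P : Subgroup G}

theorem mem_twoCore {x : Subgroup.centralizer ({z} : Set G)} :
    (x : G) ∈ Cfsg.twoCoreOfCentralizer z ↔
      x ∈ Cfsg.pCore 2 ↥(Subgroup.centralizer ({z} : Set G)) :=
  Subgroup.mem_map_iff_mem Subtype.val_injective

theorem mem_centralizer_of_twoCore {x : G} (hx : x ∈ Cfsg.twoCoreOfCentralizer z) :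
    x ∈ Subgroup.centralizer ({z} : Set G) := by
  obtain ⟨y, -, rfl⟩ := hx
  exact y.2

theorem mem_twoCore_self (hJ : Cfsg.IsOfJankoFourTypeWith z P) :
    z ∈ Cfsg.twoCoreOfCentralizer z := by
  obtain ⟨-, -, -, -, -, -, hfix, -⟩ := hJ
  exact (hfix.ge (Subgroup.mem_zpowers z)).1

/-- The centre of the 2-core consists of the powers of the involution. -/
theorem center_twoCore (hJ : Cfsg.IsOfJankoFourTypeWith z P)
    {a : ↥(Cfsg.twoCoreOfCentralizer z)}
    (ha : a ∈ Subgroup.center ↥(Cfsg.twoCoreOfCentralizer z)) : (a : G) = 1 ∨ (a : G) = z := by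
  have hzQ := mem_twoCore_self hJ
  obtain ⟨hz, ⟨-, hcard⟩, -⟩ := hJ
  set Q := Cfsg.twoCoreOfCentralizer z
  have hzc : (⟨z, hzQ⟩ : Q) ∈ Subgroup.center Q := by
    rw [Subgroup.mem_center_iff]
    intro b
    exact Subtype.ext (Subgroup.mem_centralizer_singleton_iff.1 (mem_centralizer_of_twoCore b.2))
  have hle : Subgroup.zpowers (⟨z, hzQ⟩ : Q) = Subgroup.center Q := by
    refine Subgroup.eq_of_le_of_card_ge (Subgroup.zpowers_le.2 hzc) ?_
    rw [Nat.card_zpowers, hcard, ← hz, ← Subgroup.orderOf_coe (⟨z, hzQ⟩ : Q)]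
  rw [← hle] at ha
  obtain ⟨i, rfl⟩ := ha
  rw [Subgroup.coe_zpow]
  rcases Int.even_or_odd i with ⟨k, rfl⟩ | ⟨k, rfl⟩
  · left
    show z ^ (k + k) = 1
    rw [← two_mul, zpow_mul, zpow_two, ← pow_two, ← hz, pow_orderOf_eq_one, one_zpow]
  · right
    show z ^ (2 * k + 1) = z
    rw [zpow_add, zpow_mul, zpow_two, ← pow_two, ← hz, pow_orderOf_eq_one, one_zpow, one_mul,
      zpow_one]

/-- The setup on the centraliser of the involution. -/
theorem exists_setup (hJ : Cfsg.IsOfJankoFourTypeWith z P) :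
    ∃ d : Setup ↥(Subgroup.centralizer ({z} : Set G)),
      d.E = Cfsg.pCore 2 _ ∧ (d.z : G) = z ∧ Subgroup.zpowers (d.p : G) = P := by
  haveI : Fact (Nat.Prime 2) := ⟨Nat.prime_two⟩
  haveI : Fact (Nat.Prime 3) := ⟨Nat.prime_three⟩
  have hcent := @center_twoCore _ _ _ _ _ hJ
  have hzQ := mem_twoCore_self hJ
  obtain ⟨hz, ⟨⟨hpQ, hfr, hder⟩, -⟩, hcard, hself, ⟨N, hQN, hNC, -, hNcard, ⟨hn, ⟨e⟩⟩, hPN⟩,
    hP, hfix, hne, hPd⟩ := hJ
  set Q := Cfsg.twoCoreOfCentralizer z with hQ
  set C := Subgroup.centralizer ({z} : Set G) with hC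
  obtain ⟨p₀, hp₀P, hp₀⟩ : ∃ p₀ ∈ P, p₀ ≠ 1 := by
    rcases P.bot_or_exists_ne_one with h | h
    · rw [h, Subgroup.card_bot] at hP; norm_num at hP
    · exact h
  have hp3 : p₀ ^ 3 = 1 := by
    have := pow_card_eq_one' (G := P) (x := ⟨p₀, hp₀P⟩)
    rw [hP] at this
    exact congrArg Subtype.val this
  have hpow : Subgroup.zpowers p₀ = P := by
    refine Subgroup.eq_of_le_of_card_ge (Subgroup.zpowers_le.2 hp₀P) ?_
    rw [hP, Nat.card_zpowers, orderOf_eq_prime hp3 hp₀]
  have hzC : z ∈ C := mem_centralizer_of_twoCore hzQ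
  let π : ↥C →* MulAut M := e.toMonoidHom.comp (QuotientGroup.mk' (N.subgroupOf C))
  have hker : π.ker = N.subgroupOf C := by
    ext x
    show e (QuotientGroup.mk x) = 1 ↔ _
    rw [map_eq_one_iff e e.injective, QuotientGroup.eq_one_iff]
  have hcentP : ∀ x : G, x ∈ Subgroup.centralizer (P : Set G) ↔ Commute x p₀ := by
    intro x
    rw [Subgroup.mem_centralizer_iff]
    refine ⟨fun h => (h p₀ hp₀P).symm, fun h y hy => ?_⟩
    obtain ⟨i, rfl⟩ := hpow.ge hy
    exact (h.zpow_right i).eq.symm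
  have hNormalE : (Cfsg.pCore 2 ↥C).Normal := Subgroup.sSup_normal _ fun _ h => h.1
  have hmemQ : ∀ {x : ↥C}, (x : G) ∈ Q → x ∈ Cfsg.pCore 2 ↥C := fun h => mem_twoCore.1 h
  let d : Setup ↥C :=
    { E := Cfsg.pCore 2 ↥C
      z := ⟨z, hzC⟩
      p := ⟨p₀, hNC (hPN hp₀P)⟩
      normalE := fun g x hx => hNormalE.conj_mem x hx g
      pgroupE := Sylow.sSup_of_normal _ (fun _ h => h.2) (fun _ h => h.1)
      cardE := by
        rw [← hcard, hQ, Cfsg.twoCoreOfCentralizer,
          Subgroup.card_map_of_injective Subtype.val_injective]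
      zmem := hmemQ hzQ
      zz := Subtype.ext (by
        show z * z = 1
        rw [← pow_two, ← hz, pow_orderOf_eq_one])
      zne := fun h => by
        have h' : z = 1 := congrArg Subtype.val h
        rw [h', orderOf_one] at hz
        norm_num at hz
      zc := fun h => Subtype.ext (Subgroup.mem_centralizer_singleton_iff.1 h.2).symm
      commE := fun a ha b hb => by
        let a' : Q := ⟨a, mem_twoCore.2 ha⟩
        let b' : Q := ⟨b, mem_twoCore.2 hb⟩
        have h : ⁅a', b'⁆ ∈ Subgroup.center Q :=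
          hder ▸ Subgroup.commutator_mem_commutator (Subgroup.mem_top _) (Subgroup.mem_top _)
        exact (hcent h).imp (fun h => Subtype.ext h) (fun h => Subtype.ext h)
      sqE := fun a ha => by
        let a' : Q := ⟨a, mem_twoCore.2 ha⟩
        have h : a' ^ 2 ∈ Subgroup.center Q :=
          hfr ▸ CfsgLib.PGroup.pow_prime_mem_frattini hpQ a'
        rw [pow_two] at h
        exact (hcent h).imp (fun h => Subtype.ext h) (fun h => Subtype.ext h)
      centE := fun a ha hc => by
        have h : (⟨a, mem_twoCore.2 ha⟩ : Q) ∈ Subgroup.center Q := by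
          rw [Subgroup.mem_center_iff]
          intro b
          apply Subtype.ext
          have hb := hc ⟨b, mem_centralizer_of_twoCore b.2⟩ (hmemQ b.2)
          exact (congrArg Subtype.val hb.eq).symm
        exact (hcent h).imp (fun h => Subtype.ext h) (fun h => Subtype.ext h)
      self := fun h hc => hmemQ (hself ⟨h.2, Subgroup.mem_centralizer_iff.2 fun b hb => by
        exact (congrArg Subtype.val (hc ⟨b, mem_centralizer_of_twoCore hb⟩ (hmemQ hb)).eq).symm⟩)
      π := π
      surj := e.surjective.comp (QuotientGroup.mk'_surjective _)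
      E_le := fun x hx => by
        rw [hker, Subgroup.mem_subgroupOf]
        exact hQN (mem_twoCore.2 hx)
      cardKer := by
        rw [hker, Nat.card_congr (Subgroup.subgroupOfEquivOfLe hNC).toEquiv, hNcard, hcard]
      pker := by
        rw [hker, Subgroup.mem_subgroupOf]
        exact hPN hp₀P
      p3 := Subtype.ext (by simpa using hp3)
      pne := fun h => hp₀ (congrArg Subtype.val h)
      fixE := fun x hx hc => by
        have h : (x : G) ∈ Subgroup.zpowers z :=
          hfix.le ⟨mem_twoCore.2 hx, (hcentP x).2 (congrArg Subtype.val hc.eq)⟩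
        obtain ⟨i, hi⟩ := h
        rcases Int.even_or_odd i with ⟨k, rfl⟩ | ⟨k, rfl⟩
        · left
          apply Subtype.ext
          show (x : G) = 1
          rw [← hi]
          show z ^ (k + k) = 1
          rw [← two_mul, zpow_mul, zpow_two, ← pow_two, ← hz, pow_orderOf_eq_one, one_zpow]
        · right
          apply Subtype.ext
          show (x : G) = z
          rw [← hi]
          show z ^ (2 * k + 1) = z
          rw [zpow_add, zpow_mul, zpow_two, ← pow_two, ← hz, pow_orderOf_eq_one, one_zpow,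
            one_mul, zpow_one]
      inverter := by
        classical
        by_contra hno
        refine hne (le_antisymm ?_ ?_) <;> intro n hn <;> refine ⟨hn.1, ?_⟩
        · refine (hcentP n).2 ?_
          have h := (Subgroup.mem_normalizer_iff.1 hn.2 p₀).1 hp₀P
          rw [← hpow, mem_zpowers_iff_mem_range_orderOf, orderOf_eq_prime hp3 hp₀] at h
          obtain ⟨i, hi, he⟩ := Finset.mem_image.1 h
          rw [Finset.mem_range] at hi
          interval_cases i
          · rw [pow_zero] at he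
            exact absurd (conj_eq_one_iff.1 he.symm) hp₀
          · rw [pow_one] at he
            exact mul_inv_eq_iff_eq_mul.1 he.symm
          · refine absurd ⟨⟨n, hn.1⟩, Subtype.ext ?_⟩ hno
            show n * p₀ * n⁻¹ = p₀⁻¹
            rw [← he, pow_two]
            exact eq_inv_of_mul_eq_one_left (by rw [← hp3, pow_succ, pow_two])
        · show n ∈ Subgroup.normalizer (P : Set G)
          rw [Subgroup.mem_normalizer_iff]
          intro x
          constructor
          · intro hx
            rwa [← Subgroup.mem_centralizer_iff.1 hn.2 x hx, mul_inv_cancel_right]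
          · intro hx
            have h := Subgroup.mem_centralizer_iff.1 hn.2 _ hx
            have : n * x * n⁻¹ = x := by
              have h' : n⁻¹ * (n * x * n⁻¹ * n) = n⁻¹ * (n * (n * x * n⁻¹)) := by rw [h]
              simpa [mul_assoc] using h'.symm
            rwa [this] at hx
      derived := by
        have hmap : (Subgroup.centralizer ({⟨p₀, hNC (hPN hp₀P)⟩} : Set ↥C)).map C.subtype =
            C ⊓ Subgroup.centralizer (P : Set G) := by
          ext x
          constructor
          · rintro ⟨y, hy, rfl⟩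
            refine ⟨y.2, (hcentP _).2 ?_⟩
            exact congrArg Subtype.val (Subgroup.mem_centralizer_singleton_iff.1 hy)
          · rintro ⟨hx, hxp⟩
            refine ⟨⟨x, hx⟩, Subgroup.mem_centralizer_singleton_iff.2 (Subtype.ext ?_), rfl⟩
            exact (hcentP x).1 hxp
        have h := hPd hp₀P
        rw [← hmap, ← Subgroup.map_commutator] at h
        obtain ⟨y, hy, hyp⟩ := h
        rwa [show y = ⟨p₀, hNC (hPN hp₀P)⟩ from Subtype.ext hyp] at hy }
  exact ⟨d, rfl, rfl, hpow⟩

/-- A Sylow 2-subgroup of the centraliser is one of the whole group. -/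
theorem exists_sylow_centralizer (hJ : Cfsg.IsOfJankoFourTypeWith z P) :
    ∃ (T₀ : Sylow 2 ↥(Subgroup.centralizer ({z} : Set G))) (S : Sylow 2 G),
      (S : Subgroup G) = (T₀ : Subgroup _).map (Subgroup.centralizer ({z} : Set G)).subtype := by
  haveI : Fact (Nat.Prime 2) := ⟨Nat.prime_two⟩
  have hset := exists_setup hJ
  set C := Subgroup.centralizer ({z} : Set G)
  obtain ⟨d, hdE, hdz, -⟩ := hset
  obtain ⟨T₀⟩ : Nonempty (Sylow 2 ↥C) := inferInstance
  set T' := (T₀ : Subgroup ↥C).map C.subtype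
  obtain ⟨S, hS⟩ := (T₀.isPGroup'.map C.subtype).exists_le_sylow
  refine ⟨T₀, S, le_antisymm ?_ hS⟩
  by_contra hlt
  haveI : Finite ↥(S : Subgroup G) := inferInstance
  haveI : Group.IsNilpotent ↥(S : Subgroup G) := S.isPGroup'.isNilpotent
  have hlt' : T'.subgroupOf S < ⊤ := lt_of_le_of_ne le_top fun h => hlt fun x hx => by
    have : (⟨x, hx⟩ : ↥(S : Subgroup G)) ∈ T'.subgroupOf S := h ▸ Subgroup.mem_top _
    exact this
  obtain ⟨n, hn, hnot⟩ := SetLike.exists_of_lt (normalizerCondition_of_isNilpotent _ hlt')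
  -- conjugating the involution by `n` gives a central involution of the 2-core
  have hzT : z ∈ T' := ⟨d.z, d.E_le_sylow T₀ d.zmem, hdz⟩
  have hnz : (n : G) * z * (n : G)⁻¹ ∈ T' :=
    ((Subgroup.mem_normalizer_iff.1 hn ⟨z, hS hzT⟩).1 hzT)
  obtain ⟨w, hw, hwz⟩ := hnz
  change (w : G) = _ at hwz
  have hwc : ∀ b ∈ d.E, Commute w b := by
    intro b hb
    have hbT : (b : G) ∈ T' := ⟨b, d.E_le_sylow T₀ hb, rfl⟩
    have h := (Subgroup.mem_normalizer_iff.1 (inv_mem hn) ⟨b, hS hbT⟩).1 hbT
    obtain ⟨c, -, hc⟩ := h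
    change (c : G) = (n : G)⁻¹ * b * ((n : G)⁻¹)⁻¹ at hc
    rw [inv_inv] at hc
    apply Subtype.ext
    show (w : G) * b = b * w
    have e := Subgroup.mem_centralizer_singleton_iff.1 c.2
    rw [hc] at e
    calc (w : G) * b = n * (z * ((n : G)⁻¹ * b * n)) * (n : G)⁻¹ := by rw [hwz]; group
      _ = n * ((n : G)⁻¹ * b * n * z) * (n : G)⁻¹ := by rw [← e]
      _ = b * w := by rw [hwz]; group
  rcases d.centE w (d.self w hwc) hwc with h | h
  · rw [h, Subgroup.coe_one, eq_comm, conj_eq_one_iff] at hwz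
    exact d.zne (Subtype.ext (hdz.trans hwz))
  · rw [h, hdz, eq_comm, mul_inv_eq_iff_eq_mul] at hwz
    have hnC : (n : G) ∈ C := Subgroup.mem_centralizer_singleton_iff.2 hwz
    have hp : IsPGroup 2 ↥((S : Subgroup G).subgroupOf C) :=
      S.isPGroup'.comap_of_injective C.subtype Subtype.val_injective
    have heq := T₀.is_maximal' hp (fun x hx => hS ⟨x, hx, rfl⟩)
    refine hnot ⟨⟨n, hnC⟩, heq.le ?_, rfl⟩
    exact n.2

/-- A Sylow 2-subgroup has exactly one elementary abelian subgroup of order `2 ^ 11`. -/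
theorem existsUnique_sylow (hJ : Cfsg.IsOfJankoFourTypeWith z P) (T : Sylow 2 G) :
    ∃! V : Subgroup G, V ≤ (T : Subgroup G) ∧ Cfsg.IsElementaryAbelian 2 V ∧
      Nat.card ↥V = 2 ^ 11 := by
  haveI : Fact (Nat.Prime 2) := ⟨Nat.prime_two⟩
  obtain ⟨d, -, -, -⟩ := exists_setup hJ
  obtain ⟨T₀, S, hS⟩ := exists_sylow_centralizer hJ
  obtain ⟨g, rfl⟩ := MulAction.exists_smul_eq G S T
  have h := existsUnique_map ((MulAut.conj g).toMonoidHom.comp
    (Subgroup.centralizer ({z} : Set G)).subtype)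
    ((MulAut.conj g).injective.comp Subtype.val_injective) _ (d.existsUnique_elementary T₀)
  rw [← Subgroup.map_map, ← hS] at h
  exact h

end CfsgLib.J4Type67
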