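import Mathlib

/-!
The index inequality for two subgroups whose commutators lie in a central subgroup of order two.
-/

set_option autoImplicit false

namespace CfsgLib.J4Type67

variable {G : Type*} [Group G] [Finite G]

theorem exists_gens {T₀ T : Subgroup G} (hle : T₀ ≤ T) :
    ∃ (n : ℕ) (t : Fin n → G), (∀ i, t i ∈ T) ∧ T ≤ T₀ ⊔ Subgroup.closure (Set.range t) ∧
      2 ^ n * Nat.card T₀ ≤ Nat.card T := by
  by_cases heq : T₀ = T
  · exact ⟨0, Fin.elim0, fun i => i.elim0, le_sup_of_le_left heq.ge, by rw [pow_zero, one_mul, heq]⟩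
  · obtain ⟨a, ha, ha0⟩ := SetLike.exists_of_lt (lt_of_le_of_ne hle heq)
    set T₁ := T₀ ⊔ Subgroup.closure {a}
    have hT₁ : T₁ ≤ T := sup_le hle ((Subgroup.closure_le _).2 (by simpa using ha))
    have hlt : T₀ < T₁ := lt_of_le_of_ne le_sup_left fun h =>
      ha0 (h ▸ Subgroup.mem_sup_right (Subgroup.subset_closure rfl))
    have hdouble : 2 * Nat.card T₀ ≤ Nat.card T₁ := by
      have h := Subgroup.relIndex_mul_relIndex ⊥ T₀ T₁ bot_le le_sup_left
      rw [Subgroup.relIndex_bot_left, Subgroup.relIndex_bot_left] at h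
      rw [← h, mul_comm]
      refine Nat.mul_le_mul_left _ ?_
      by_contra h2
      push_neg at h2
      interval_cases hr : T₀.relIndex T₁
      · exact (Nat.card_pos (α := T₁)).ne' (by rw [← h, mul_zero])
      · exact hlt.not_ge (Subgroup.relIndex_eq_one.1 hr)
    obtain ⟨n, t, ht, htT, hn⟩ := exists_gens hT₁
    refine ⟨n + 1, Fin.cons a t, fun i => ?_, htT.trans (sup_le (sup_le le_sup_left ?_) ?_), ?_⟩
    · refine Fin.cases ?_ ?_ i <;> simp [ha, ht]
    · exact le_sup_of_le_right (Subgroup.closure_mono (by simp [Fin.range_cons]))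
    · exact le_sup_of_le_right (Subgroup.closure_mono (by simp [Fin.range_cons]))
    · calc 2 ^ (n + 1) * Nat.card T₀ = 2 ^ n * (2 * Nat.card T₀) := by ring
        _ ≤ 2 ^ n * Nat.card T₁ := Nat.mul_le_mul_left _ hdouble
        _ ≤ _ := hn
termination_by Nat.card T - Nat.card T₀
decreasing_by
  have h1 : Nat.card ↥(T₀ ⊔ Subgroup.closure {a}) ≤ Nat.card T := Subgroup.card_le_of_le hT₁
  have h2 : 0 < Nat.card T₀ := Nat.card_pos
  have h3 : 2 * Nat.card T₀ ≤ Nat.card ↥(T₀ ⊔ Subgroup.closure {a}) := hdouble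
  omega

theorem pairing_bound {z : G} {U T : Subgroup G}
    (h : ∀ u ∈ U, ∀ t ∈ T, u * t * u⁻¹ * t⁻¹ = 1 ∨ u * t * u⁻¹ * t⁻¹ = z) :
    Nat.card U * Nat.card ↥(T ⊓ Subgroup.centralizer (U : Set G)) ≤
      Nat.card ↥(U ⊓ Subgroup.centralizer (T : Set G)) * Nat.card T := by
  classical
  obtain ⟨n, t, ht, hgen, hn⟩ := exists_gens (T₀ := T ⊓ Subgroup.centralizer (U : Set G)) (T := T)
    inf_le_left
  set K := U ⊓ Subgroup.centralizer (T : Set G)
  let f : U → Fin n → Bool := fun u i => decide (u.1 * t i * u.1⁻¹ * (t i)⁻¹ = 1)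
  have hfib : ∀ u v : U, f u = f v → v.1⁻¹ * u.1 ∈ K := by
    intro u v he
    have hS : ∀ i, Commute (v.1⁻¹ * u.1) (t i) := fun i => by
      have e : u.1 * t i * u.1⁻¹ * (t i)⁻¹ = v.1 * t i * v.1⁻¹ * (t i)⁻¹ := by
        have := congrFun he i
        simp only [f, decide_eq_decide] at this
        rcases h u.1 u.2 (t i) (ht i) with hu | hu <;>
          rcases h v.1 v.2 (t i) (ht i) with hv | hv
        · rw [hu, hv]
        · rw [hu, this.1 hu]
        · rw [hv, this.2 hv]
        · rw [hu, hv]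
      have e' := mul_right_cancel e
      show v.1⁻¹ * u.1 * t i = t i * (v.1⁻¹ * u.1)
      calc v.1⁻¹ * u.1 * t i = v.1⁻¹ * (u.1 * t i * u.1⁻¹) * u.1 := by group
        _ = v.1⁻¹ * (v.1 * t i * v.1⁻¹) * u.1 := by rw [e']
        _ = t i * (v.1⁻¹ * u.1) := by group
    refine ⟨U.mul_mem (U.inv_mem v.2) u.2, Subgroup.mem_centralizer_iff.2 fun x hx => ?_⟩
    have hle : (T ⊓ Subgroup.centralizer (U : Set G)) ⊔ Subgroup.closure (Set.range t) ≤
        Subgroup.centralizer {v.1⁻¹ * u.1} := by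
      refine sup_le (fun y hy => ?_) ((Subgroup.closure_le _).2 ?_)
      · rw [Subgroup.mem_centralizer_singleton_iff]
        exact (Subgroup.mem_centralizer_iff.1 hy.2 _ (mul_mem (inv_mem v.2) u.2)).symm
      · rintro _ ⟨i, rfl⟩
        rw [SetLike.mem_coe, Subgroup.mem_centralizer_singleton_iff]
        exact (hS i).eq.symm
    exact (Subgroup.mem_centralizer_singleton_iff.1 (hle (hgen hx))).trans rfl
  have hU : Nat.card U ≤ Nat.card K * 2 ^ n := by
    let rep : (Fin n → Bool) → U := fun b => if hb : ∃ u, f u = b then hb.choose else 1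
    have hrep : ∀ u, f (rep (f u)) = f u := fun u => by
      have hb : ∃ v, f v = f u := ⟨u, rfl⟩
      simp only [rep, dif_pos hb]
      exact hb.choose_spec
    let g : U → K × (Fin n → Bool) := fun u =>
      (⟨(rep (f u)).1⁻¹ * u.1, hfib u (rep (f u)) (hrep u).symm⟩, f u)
    have hg : Function.Injective g := fun u v e => by
      have e1 := congrArg (fun p => (p.1 : G)) e
      have e2 : f u = f v := congrArg Prod.snd e
      simp only [g, e2] at e1
      exact Subtype.ext (mul_left_cancel e1)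
    refine (Nat.card_le_card_of_injective g hg).trans (le_of_eq ?_)
    simp [Nat.card_prod, Nat.card_fun]
  calc Nat.card U * Nat.card ↥(T ⊓ Subgroup.centralizer (U : Set G))
      ≤ Nat.card K * 2 ^ n * Nat.card ↥(T ⊓ Subgroup.centralizer (U : Set G)) :=
        Nat.mul_le_mul_right _ hU
    _ = Nat.card K * (2 ^ n * Nat.card ↥(T ⊓ Subgroup.centralizer (U : Set G))) := by ring
    _ ≤ Nat.card K * Nat.card T := Nat.mul_le_mul_left _ hn

end CfsgLib.J4Type67
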