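import Cfsg.Agent.J4Type67.Module
import Cfsg.Agent.J4Type67.Pairing
import Cfsg.Agent.Mathieu.OutLarge

/-!
The centraliser of the involution in a group of Janko-four type, and its module structure.
-/

set_option autoImplicit false

namespace CfsgLib.J4Type67

open scoped Pointwise commutatorElement

universe u

theorem conj_injective_M : Function.Injective (MulAut.conj : M →* MulAut M) := by
  haveI := CfsgLib.Mathieu.isSimpleGroup_M22
  rw [injective_iff_map_eq_one]
  intro a ha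
  have hc : a ∈ Subgroup.center M := by
    rw [Subgroup.mem_center_iff]
    intro b
    have := congrArg (fun φ : MulAut M => φ b) ha
    simp only [MulAut.conj_apply, MulAut.one_apply] at this
    exact (mul_inv_eq_iff_eq_mul.1 this).symm
  rcases IsSimpleGroup.eq_bot_or_eq_top_of_normal _ (inferInstance : (Subgroup.center M).Normal)
    with h | h
  · rw [h] at hc; exact Subgroup.mem_bot.1 hc
  · let _ : CommGroup M := { (inferInstance : Group M) with
      mul_comm := fun x y => (Subgroup.mem_center_iff.1 (h ▸ Subgroup.mem_top y) x) }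
    have hp := IsSimpleGroup.prime_card (α := M)
    rw [CfsgLib.Mathieu.card_M22] at hp
    norm_num at hp

theorem inn_index : (MulAut.conj : M →* MulAut M).range.index = 2 :=
  CfsgLib.Mathieu.card_out_M22

theorem card_le_two_mul {G : Type*} [Group G] (K : Subgroup G) (hK : K.index ≤ 2)
    (hK0 : K.index ≠ 0) (L : Subgroup G) : Nat.card L ≤ 2 * Nat.card ↥(L ⊓ K) := by
  have h := Subgroup.relIndex_mul_relIndex ⊥ (L ⊓ K) L bot_le inf_le_left
  rw [Subgroup.relIndex_bot_left, Subgroup.relIndex_bot_left, Subgroup.inf_relIndex_left] at h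
  rw [← h, mul_comm 2]
  refine Nat.mul_le_mul_left _ (le_trans ?_ hK)
  rw [← Subgroup.relIndex_top_right K]
  exact Subgroup.relIndex_le_of_le_right le_top (by rwa [Subgroup.relIndex_top_right])

/-- The data of an involution centraliser of Janko-four type. -/
structure Setup (H : Type u) [Group H] where
  E : Subgroup H
  z : H
  p : H
  normalE : ∀ (g : H), ∀ x ∈ E, g * x * g⁻¹ ∈ E
  pgroupE : IsPGroup 2 E
  cardE : Nat.card E = 2 ^ 13
  zmem : z ∈ E
  zz : z * z = 1
  zne : z ≠ 1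
  zc : ∀ h, Commute z h
  commE : ∀ a ∈ E, ∀ b ∈ E, a * b * a⁻¹ * b⁻¹ = 1 ∨ a * b * a⁻¹ * b⁻¹ = z
  sqE : ∀ a ∈ E, a * a = 1 ∨ a * a = z
  centE : ∀ a ∈ E, (∀ b ∈ E, Commute a b) → a = 1 ∨ a = z
  self : ∀ h, (∀ b ∈ E, Commute h b) → h ∈ E
  π : H →* MulAut M
  surj : Function.Surjective π
  E_le : E ≤ π.ker
  cardKer : Nat.card π.ker = 3 * 2 ^ 13
  pker : p ∈ π.ker
  p3 : p ^ 3 = 1
  pne : p ≠ 1
  fixE : ∀ e ∈ E, Commute e p → e = 1 ∨ e = z
  inverter : ∃ h, h * p * h⁻¹ = p⁻¹
  derived : p ∈ ⁅Subgroup.centralizer {p}, Subgroup.centralizer {p}⁆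

namespace Setup

variable {H : Type u} [Group H] [Finite H] (d : Setup H)

/-- The centraliser of the element of order three. -/
abbrev C : Subgroup H := Subgroup.centralizer {d.p}

theorem mem_C {c : H} : c ∈ d.C ↔ Commute c d.p :=
  Subgroup.mem_centralizer_singleton_iff

/-- The subgroup generated by the involution. -/
abbrev Z : Subgroup H := Subgroup.zpowers d.z

theorem order_z : orderOf d.z = 2 := orderOf_eq_prime (by rw [pow_two, d.zz]) d.zne

theorem mem_Z {x : H} : x ∈ d.Z ↔ x = 1 ∨ x = d.z := by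
  classical
  constructor
  · intro h
    rw [mem_zpowers_iff_mem_range_orderOf, d.order_z] at h
    obtain ⟨i, hi, rfl⟩ := Finset.mem_image.1 h
    rw [Finset.mem_range] at hi
    interval_cases i <;> simp
  · rintro (rfl | rfl)
    exacts [one_mem _, Subgroup.mem_zpowers _]

theorem card_Z : Nat.card d.Z = 2 := by rw [Nat.card_zpowers, d.order_z]

theorem Z_le_E : d.Z ≤ d.E := Subgroup.zpowers_le.2 d.zmem

theorem commE' {a b : H} (ha : a ∈ d.E) (hb : b ∈ d.E) : a * b * a⁻¹ * b⁻¹ ∈ d.Z :=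
  d.mem_Z.2 (d.commE a ha b hb)

theorem p_notMem : d.p ∉ d.E := by
  intro h
  obtain ⟨k, hk⟩ := d.pgroupE ⟨d.p, h⟩
  have h2 : orderOf d.p ∣ 2 ^ k := orderOf_dvd_of_pow_eq_one (congrArg Subtype.val hk)
  haveI : Fact (Nat.Prime 3) := ⟨Nat.prime_three⟩
  rw [orderOf_eq_prime d.p3 d.pne] at h2
  have := Nat.prime_three.dvd_of_dvd_pow h2
  norm_num at this

theorem p_order : orderOf d.p = 3 := by
  haveI : Fact (Nat.Prime 3) := ⟨Nat.prime_three⟩
  exact orderOf_eq_prime d.p3 d.pne

theorem ker_decomp {n : H} (hn : n ∈ d.π.ker) : ∃ i : ℤ, n * d.p ^ i ∈ d.E := by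
  haveI : d.E.Normal := ⟨fun x hx g => d.normalE g x hx⟩
  let q := QuotientGroup.mk' d.E
  set L := d.π.ker.map q
  have hcard : Nat.card L = 3 := by
    have h1 := Subgroup.card_eq_card_quotient_mul_card_subgroup (d.E.subgroupOf d.π.ker)
    rw [Nat.card_congr (Subgroup.subgroupOfEquivOfLe d.E_le).toEquiv, d.cardKer, d.cardE] at h1
    have h2 : Nat.card L = Nat.card (d.π.ker ⧸ d.E.subgroupOf d.π.ker) := by
      let f : d.π.ker →* H ⧸ d.E := q.comp d.π.ker.subtype
      have hr : f.range = L := by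
        rw [MonoidHom.range_eq_map, ← Subgroup.map_map, ← MonoidHom.range_eq_map,
          Subgroup.range_subtype]
      have hk : f.ker = d.E.subgroupOf d.π.ker := by
        ext x
        simp only [f, q, MonoidHom.mem_ker, MonoidHom.coe_comp, Function.comp_apply,
          Subgroup.subtype_apply, QuotientGroup.mk'_apply, QuotientGroup.eq_one_iff,
          Subgroup.mem_subgroupOf]
      rw [← hr, ← hk, ← Nat.card_congr (QuotientGroup.quotientKerEquivRange f).toEquiv]
    omega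
  haveI : Fact (Nat.Prime 3) := ⟨Nat.prime_three⟩
  have hne : q d.p ≠ 1 := fun h => d.p_notMem ((QuotientGroup.eq_one_iff _).1 h)
  have hmem : (⟨q n, n, hn, rfl⟩ : L) ∈ Subgroup.zpowers (⟨q d.p, d.p, d.pker, rfl⟩ : L) := by
    rw [zpowers_eq_top_of_prime_card hcard (fun h => hne (congrArg Subtype.val h))]
    exact Subgroup.mem_top _
  obtain ⟨i, hi⟩ := hmem
  have hi' : q d.p ^ i = q n := congrArg Subtype.val hi
  refine ⟨-i, (QuotientGroup.eq_one_iff _).1 ?_⟩
  show q (n * d.p ^ (-i)) = 1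
  rw [map_mul, map_zpow, zpow_neg, hi', mul_inv_cancel]

/-- Normalising elements centralise or invert the element of order three. -/
theorem conj_p {a : H} (ha : a ∈ Subgroup.normalizer (Subgroup.zpowers d.p : Set H)) :
    a * d.p * a⁻¹ = d.p ∨ a * d.p * a⁻¹ = d.p⁻¹ := by
  classical
  have h := (Subgroup.mem_normalizer_iff.1 ha d.p).1 (Subgroup.mem_zpowers _)
  rw [mem_zpowers_iff_mem_range_orderOf, d.p_order] at h
  obtain ⟨i, hi, he⟩ := Finset.mem_image.1 h
  rw [Finset.mem_range] at hi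
  interval_cases i
  · exfalso
    rw [pow_zero] at he
    exact d.pne (conj_eq_one_iff.1 he.symm)
  · exact Or.inl (by rw [← he, pow_one])
  · right
    rw [← he, pow_two]
    exact eq_inv_of_mul_eq_one_left (by rw [← d.p3, pow_succ, pow_two])

theorem exists_normalizer (h : H) :
    ∃ a, a ∈ Subgroup.normalizer (Subgroup.zpowers d.p : Set H) ∧ d.π a = d.π h := by
  haveI : Fact (Nat.Prime 3) := ⟨Nat.prime_three⟩
  have hle : Subgroup.zpowers d.p ≤ d.π.ker := Subgroup.zpowers_le.2 d.pker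
  have hfac : (3 * 2 ^ 13).factorization 3 = 1 := by
    rw [Nat.factorization_mul (by norm_num) (by norm_num)]
    rw [Finsupp.add_apply, Nat.factorization_eq_zero_of_not_dvd (by norm_num : ¬(3 ∣ 2 ^ 13)),
      Nat.Prime.factorization_self Nat.prime_three]
  let P : Sylow 3 d.π.ker := Sylow.ofCard ((Subgroup.zpowers d.p).subgroupOf d.π.ker) (by
    rw [Nat.card_congr (Subgroup.subgroupOfEquivOfLe hle).toEquiv, Nat.card_zpowers, d.p_order,
      d.cardKer, hfac]
    norm_num)
  have hsup := Sylow.normalizer_sup_eq_top P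
  have hP : ((P : Subgroup d.π.ker).map d.π.ker.subtype : Subgroup H) = Subgroup.zpowers d.p := by
    show ((Subgroup.zpowers d.p).subgroupOf d.π.ker).map d.π.ker.subtype = _
    rw [Subgroup.map_subgroupOf_eq_of_le hle]
  rw [hP] at hsup
  have : h ∈ Subgroup.normalizer (Subgroup.zpowers d.p : Set H) ⊔ d.π.ker := by
    rw [hsup]; exact Subgroup.mem_top h
  rw [← SetLike.mem_coe, Subgroup.mul_normal] at this
  obtain ⟨a, ha, n, hn, rfl⟩ := this
  exact ⟨a, ha, by rw [map_mul, (MonoidHom.mem_ker).1 hn, mul_one]⟩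

theorem map_C : d.C.map d.π = (MulAut.conj : M →* MulAut M).range := by
  haveI := CfsgLib.Mathieu.isSimpleGroup_M22
  obtain ⟨h₀, hh₀⟩ := d.inverter
  set K := d.C.map d.π
  have hcl : ∀ h, d.π h ∈ K ∨ (d.π h₀)⁻¹ * d.π h ∈ K := by
    intro h
    obtain ⟨a, ha, hah⟩ := d.exists_normalizer h
    rw [← hah]
    rcases d.conj_p ha with e | e
    · exact Or.inl ⟨a, d.mem_C.2 (mul_inv_eq_iff_eq_mul.1 e), rfl⟩
    · refine Or.inr ⟨h₀⁻¹ * a, d.mem_C.2 ?_, by rw [map_mul, map_inv]⟩
      have : h₀⁻¹ * a * d.p * (h₀⁻¹ * a)⁻¹ = d.p := by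
        rw [show h₀⁻¹ * a * d.p * (h₀⁻¹ * a)⁻¹ = h₀⁻¹ * (a * d.p * a⁻¹) * h₀ by group, e,
          ← hh₀]
        group
      exact mul_inv_eq_iff_eq_mul.1 this
  have hnot : d.π h₀ ∉ K := by
    rintro ⟨c, hc, hcp⟩
    have hn : c⁻¹ * h₀ ∈ d.π.ker := by rw [MonoidHom.mem_ker, map_mul, map_inv, hcp, inv_mul_cancel]
    obtain ⟨i, hi⟩ := d.ker_decomp hn
    set e := c⁻¹ * h₀ * d.p ^ i
    have hh : h₀ = c * e * d.p ^ (-i) := by simp only [e, zpow_neg]; group
    have hc' : c * d.p * c⁻¹ = d.p := mul_inv_eq_iff_eq_mul.2 (d.mem_C.1 hc).eq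
    have he' : e * d.p * e⁻¹ = c⁻¹ * d.p⁻¹ * c := by
      rw [← hh₀, hh]
      simp only [zpow_neg]
      group
    have : d.p * d.p ∈ d.E := by
      have h1 : e * (d.p * e⁻¹ * d.p⁻¹) ∈ d.E :=
        mul_mem hi (d.normalE _ _ (inv_mem hi))
      have h2 : c⁻¹ * d.p⁻¹ * c = d.p⁻¹ := by
        have := (d.mem_C.1 hc).inv_right.eq
        rw [mul_assoc, ← this, inv_mul_cancel_left]
      rw [show e * (d.p * e⁻¹ * d.p⁻¹) = e * d.p * e⁻¹ * d.p⁻¹ by group, he', h2] at h1
      have := inv_mem h1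
      simpa [mul_inv_rev] using this
    refine d.p_notMem ?_
    have h4 := mul_mem this this
    rwa [show d.p * d.p * (d.p * d.p) = d.p by
      rw [← mul_assoc, ← pow_three', d.p3, one_mul]] at h4
  haveI hn : K.Normal := by
    refine ⟨?_⟩
    rintro _ ⟨c, hc, rfl⟩ g
    obtain ⟨h', rfl⟩ := d.surj g
    obtain ⟨a, ha, hah⟩ := d.exists_normalizer h'
    rw [← hah, ← map_inv, ← map_mul, ← map_mul]
    refine ⟨a * c * a⁻¹, d.mem_C.2 ?_, rfl⟩
    have hc' : c * d.p * c⁻¹ = d.p := mul_inv_eq_iff_eq_mul.2 (d.mem_C.1 hc).eq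
    refine mul_inv_eq_iff_eq_mul.1 ?_
    rcases d.conj_p (inv_mem ha) with e | e <;> rw [inv_inv] at e
    · rw [show a * c * a⁻¹ * d.p * (a * c * a⁻¹)⁻¹ = a * (c * (a⁻¹ * d.p * a) * c⁻¹) * a⁻¹
        by group, e, hc']
      conv_lhs => rw [← e]
      group
    · have hc'' : c * d.p⁻¹ * c⁻¹ = d.p⁻¹ := by
        simpa [mul_assoc] using congrArg (·⁻¹) hc'
      rw [show a * c * a⁻¹ * d.p * (a * c * a⁻¹)⁻¹ = a * (c * (a⁻¹ * d.p * a) * c⁻¹) * a⁻¹
        by group, e, hc'', ← e]
      group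
  have hidx : K.index = 2 := by
    refine Subgroup.index_eq_two_iff_exists_notMem_and.2 ⟨(d.π h₀)⁻¹, ?_, fun b => ?_⟩
    · exact fun h => hnot (by simpa using inv_mem h)
    · obtain ⟨h, rfl⟩ := d.surj b
      exact (hcl h).symm.imp (fun h1 => hn.mem_comm_iff.1 h1) id
  have hle : (MulAut.conj : M →* MulAut M).range ≤ K := by
    rintro _ ⟨m, rfl⟩
    haveI : K.Normal := Subgroup.normal_of_index_eq_two hidx
    rcases IsSimpleGroup.eq_bot_or_eq_top_of_normal _
      (inferInstance : (K.comap (MulAut.conj : M →* MulAut M)).Normal) with h | h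
    · exfalso
      have h2 := card_le_two_mul K (le_of_eq hidx) (by omega) (MulAut.conj : M →* MulAut M).range
      have hinf : (MulAut.conj : M →* MulAut M).range ⊓ K = ⊥ := by
        rw [eq_bot_iff]
        rintro _ ⟨⟨a, rfl⟩, ha⟩
        have : a ∈ K.comap (MulAut.conj : M →* MulAut M) := ha
        rw [h, Subgroup.mem_bot] at this
        rw [this, map_one]; exact one_mem _
      rw [hinf, Subgroup.card_bot, ← Nat.card_congr (MonoidHom.ofInjective conj_injective_M).toEquiv,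
        CfsgLib.Mathieu.card_M22] at h2
      norm_num at h2
    · exact Subgroup.mem_comap.1 (h ▸ Subgroup.mem_top m)
  refine (Subgroup.eq_of_le_of_card_ge hle ?_).symm
  have h1 := Subgroup.card_mul_index K
  have h2 := Subgroup.card_mul_index (MulAut.conj : M →* MulAut M).range
  rw [hidx] at h1; rw [inn_index] at h2
  omega

instance normalZ : (d.Z.subgroupOf d.E).Normal :=
  ⟨fun x hx g => by
    have hx' : (x : H) ∈ d.Z := hx
    show (g : H) * x * (g : H)⁻¹ ∈ d.Z
    rcases d.mem_Z.1 hx' with h | h <;> rw [h]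
    · simp
    · rw [← (d.zc g).eq, mul_assoc, mul_inv_cancel, mul_one]; exact Subgroup.mem_zpowers _⟩

/-- The module. -/
abbrev W := ↥d.E ⧸ d.Z.subgroupOf d.E

/-- The image of an element of the extraspecial group. -/
def q (e : H) (he : e ∈ d.E) : d.W := QuotientGroup.mk ⟨e, he⟩

theorem q_eq_iff {a b : H} {ha : a ∈ d.E} {hb : b ∈ d.E} :
    d.q a ha = d.q b hb ↔ a⁻¹ * b ∈ d.Z := QuotientGroup.eq

theorem q_one_iff {a : H} {ha : a ∈ d.E} : d.q a ha = 1 ↔ a ∈ d.Z :=
  QuotientGroup.eq_one_iff _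

theorem q_mul {a b : H} (ha : a ∈ d.E) (hb : b ∈ d.E) :
    d.q (a * b) (mul_mem ha hb) = d.q a ha * d.q b hb := rfl

theorem q_surj (w : d.W) : ∃ a, ∃ ha : a ∈ d.E, d.q a ha = w := by
  induction w using QuotientGroup.induction_on with
  | H a => exact ⟨a.1, a.2, rfl⟩

theorem z_conj (h : H) {x : H} (hx : x ∈ d.Z) : h * x * h⁻¹ = x := by
  rcases d.mem_Z.1 hx with rfl | rfl
  · simp
  · rw [← (d.zc h).eq, mul_assoc, mul_inv_cancel, mul_one]

/-- Conjugation on the module. -/
def actHom (h : H) : d.W →* d.W :=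
  QuotientGroup.lift _
    { toFun := fun e : d.E => d.q (h * e * h⁻¹) (d.normalE h _ e.2)
      map_one' := by rw [q_one_iff]; simp
      map_mul' := fun a b => by
        rw [← q_mul]
        simp only [q_eq_iff, Subgroup.coe_mul]
        convert one_mem d.Z using 1
        group }
    (fun e he => by
      rw [MonoidHom.mem_ker]
      show d.q _ _ = 1
      rw [q_one_iff, d.z_conj h (show (e : H) ∈ d.Z from he)]
      exact he)

theorem actHom_q (h : H) {a : H} (ha : a ∈ d.E) :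
    d.actHom h (d.q a ha) = d.q (h * a * h⁻¹) (d.normalE h a ha) := rfl

theorem actHom_mul (g h : H) (w : d.W) : d.actHom (g * h) w = d.actHom g (d.actHom h w) := by
  obtain ⟨a, ha, rfl⟩ := d.q_surj w
  rw [actHom_q, actHom_q, actHom_q, q_eq_iff]
  convert one_mem d.Z using 1
  group

theorem actHom_one (w : d.W) : d.actHom 1 w = w := by
  obtain ⟨a, ha, rfl⟩ := d.q_surj w
  rw [actHom_q, q_eq_iff]
  simp

/-- The action of the centraliser on the module. -/
def actH : H →* MulAut d.W where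
  toFun h :=
    { toFun := d.actHom h
      invFun := d.actHom h⁻¹
      left_inv := fun w => by rw [← d.actHom_mul, inv_mul_cancel, d.actHom_one]
      right_inv := fun w => by rw [← d.actHom_mul, mul_inv_cancel, d.actHom_one]
      map_mul' := map_mul _ }
  map_one' := MulEquiv.ext d.actHom_one
  map_mul' g h := MulEquiv.ext (d.actHom_mul g h)

theorem actH_q (h : H) {a : H} (ha : a ∈ d.E) :
    d.actH h (d.q a ha) = d.q (h * a * h⁻¹) (d.normalE h a ha) := rfl

theorem conj_mem_Z {a : H} (ha : a ∈ d.E) {h : H} :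
    d.actH h (d.q a ha) = d.q a ha ↔ h * a * h⁻¹ * a⁻¹ ∈ d.Z := by
  rw [actH_q, q_eq_iff, ← inv_mem_iff]
  constructor
  · intro hm
    have := d.z_conj a hm
    rw [show h * a * h⁻¹ * a⁻¹ = a * ((h * a * h⁻¹)⁻¹ * a)⁻¹ * a⁻¹ by group, this]
    exact hm
  · intro hm
    have := d.z_conj a⁻¹ hm
    rw [show ((h * a * h⁻¹)⁻¹ * a)⁻¹ = a⁻¹ * (h * a * h⁻¹ * a⁻¹) * a⁻¹⁻¹ by group, this]
    exact hm

theorem cent_inf_le {L : Subgroup H} (hL : ∀ x ∈ L, x ∈ Subgroup.centralizer (d.E : Set H)) :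
    L ≤ d.Z := fun x hx => by
  have h : ∀ b ∈ d.E, Commute x b := fun b hb =>
    ((Subgroup.mem_centralizer_iff.1 (hL x hx)) b hb).symm
  exact d.mem_Z.2 (d.centE x (d.self x h) h)

theorem mem_E_of_act {h : H} (hh : d.actH h = 1) : h ∈ d.E := by
  set L := d.actH.ker
  have hEL : d.E ≤ L := by
    intro e he
    refine MulEquiv.ext fun w => ?_
    obtain ⟨a, ha, rfl⟩ := d.q_surj w
    exact (d.conj_mem_Z ha).2 (d.commE' he ha)
  have hb := pairing_bound (U := L) (T := d.E) (z := d.z) fun u hu t ht => by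
    refine d.mem_Z.1 ((d.conj_mem_Z ht).1 ?_)
    rw [(MonoidHom.mem_ker).1 hu]; rfl
  have h1 : 2 ≤ Nat.card ↥(d.E ⊓ Subgroup.centralizer (L : Set H)) := by
    rw [← d.card_Z]
    refine Subgroup.card_le_of_le fun x hx => ⟨d.Z_le_E hx, Subgroup.mem_centralizer_iff.2 ?_⟩
    intro y _
    rcases d.mem_Z.1 hx with rfl | rfl
    · simp
    · exact (d.zc y).eq.symm
  have h2 : Nat.card ↥(L ⊓ Subgroup.centralizer (d.E : Set H)) ≤ 2 := by
    rw [← d.card_Z]
    exact Subgroup.card_le_of_le (d.cent_inf_le fun x hx => hx.2)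
  have hLE : d.E = L := by
    refine Subgroup.eq_of_le_of_card_ge hEL ?_
    have := (Nat.mul_le_mul_left (Nat.card L) h1).trans (hb.trans (Nat.mul_le_mul_right _ h2))
    omega
  rw [hLE]; exact hh

theorem mem_Z_of_C {x : H} (hx : x ∈ d.E) (hc : x ∈ d.C) : x ∈ d.Z :=
  d.mem_Z.2 (d.fixE x hx (d.mem_C.1 hc))

theorem pi_mem_inn (c : d.C) : d.π c ∈ (MulAut.conj : M →* MulAut M).range := by
  rw [← d.map_C]; exact ⟨c, c.2, rfl⟩

/-- The projection of the centraliser of the element of order three onto `M22`. -/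
noncomputable def sigma : d.C →* M :=
  (MonoidHom.ofInjective conj_injective_M).symm.toMonoidHom.comp
    ((d.π.comp d.C.subtype).codRestrict _ d.pi_mem_inn)

theorem conj_sigma (c : d.C) : MulAut.conj (d.sigma c) = d.π c := by
  have := (MonoidHom.ofInjective conj_injective_M).apply_symm_apply
    ⟨d.π c, d.pi_mem_inn c⟩
  exact congrArg Subtype.val this

instance normalZC : (d.Z.subgroupOf d.C).Normal :=
  ⟨fun x hx g => by
    show (g : H) * x * (g : H)⁻¹ ∈ d.Z
    rw [d.z_conj g (show (x : H) ∈ d.Z from hx)]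
    exact hx⟩

/-- The acting group. -/
abbrev X := ↥d.C ⧸ d.Z.subgroupOf d.C

theorem Z_le_kerAct : d.Z.subgroupOf d.C ≤ (d.actH.comp d.C.subtype).ker := by
  intro c hc
  refine MulEquiv.ext fun w => ?_
  obtain ⟨a, ha, rfl⟩ := d.q_surj w
  exact (d.conj_mem_Z ha).2 (d.commE' (d.Z_le_E hc) ha)

theorem Z_le_kerSigma : d.Z.subgroupOf d.C ≤ d.sigma.ker := by
  intro c hc
  rw [MonoidHom.mem_ker]
  apply conj_injective_M
  rw [d.conj_sigma, map_one]
  exact (MonoidHom.mem_ker).1 (d.E_le (d.Z_le_E hc))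

/-- The module structure. -/
noncomputable def rep : Rep d.X d.W where
  act := QuotientGroup.lift _ (d.actH.comp d.C.subtype) d.Z_le_kerAct
  inj := by
    rw [injective_iff_map_eq_one]
    intro x
    induction x using QuotientGroup.induction_on with
    | H c =>
      intro hc
      exact (QuotientGroup.eq_one_iff c).2 (d.mem_Z_of_C (d.mem_E_of_act hc) c.2)
  proj := QuotientGroup.lift _ d.sigma d.Z_le_kerSigma
  surj := by
    intro m
    have : MulAut.conj m ∈ d.C.map d.π := by rw [d.map_C]; exact ⟨m, rfl⟩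
    obtain ⟨c, hc, hcm⟩ := this
    exact ⟨QuotientGroup.mk ⟨c, hc⟩, conj_injective_M (by
      show MulAut.conj (d.sigma ⟨c, hc⟩) = _
      rw [d.conj_sigma]; exact hcm)⟩
  p := QuotientGroup.mk ⟨d.p, d.mem_C.2 (Commute.refl _)⟩
  ker := by
    ext x
    induction x using QuotientGroup.induction_on with
    | H c =>
      constructor
      · intro hc
        have hk : (c : H) ∈ d.π.ker := by
          have hc' : d.sigma c = 1 := hc
          rw [MonoidHom.mem_ker, ← d.conj_sigma, hc', map_one]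
        obtain ⟨i, hi⟩ := d.ker_decomp hk
        have hpi : d.p ^ i ∈ d.C := zpow_mem (d.mem_C.2 (Commute.refl _)) i
        refine ⟨-i, ?_⟩
        show (QuotientGroup.mk ⟨d.p, _⟩ : d.X) ^ (-i) = _
        rw [← QuotientGroup.mk_zpow, QuotientGroup.eq]
        show (((⟨d.p, _⟩ : d.C) ^ (-i))⁻¹ * c : d.C).1 ∈ d.Z
        simp only [Subgroup.coe_mul, Subgroup.coe_inv, Subgroup.coe_zpow, zpow_neg, inv_inv]
        rw [((d.mem_C.1 c.2).zpow_right i).symm.eq]
        exact d.mem_Z_of_C hi (mul_mem c.2 hpi)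
      · rintro ⟨i, hi⟩
        rw [← hi]
        refine zpow_mem ?_ i
        rw [MonoidHom.mem_ker]
        show d.sigma ⟨d.p, _⟩ = 1
        apply conj_injective_M
        rw [d.conj_sigma, map_one]
        exact (MonoidHom.mem_ker).1 d.pker
  cube := by
    rw [← QuotientGroup.mk_pow, QuotientGroup.eq_one_iff]
    show ((⟨d.p, _⟩ : d.C) ^ 3).1 ∈ d.Z
    rw [Subgroup.coe_pow, d.p3]; exact one_mem _
  central := by
    intro x
    induction x using QuotientGroup.induction_on with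
    | H c =>
      show QuotientGroup.mk _ * QuotientGroup.mk c = QuotientGroup.mk c * QuotientGroup.mk _
      rw [← QuotientGroup.mk_mul, ← QuotientGroup.mk_mul]
      exact congrArg _ (Subtype.ext (d.mem_C.1 c.2).eq.symm)
  derived := by
    have h : (⟨d.p, d.mem_C.2 (Commute.refl _)⟩ : d.C) ∈ commutator ↥d.C := by
      have := d.derived
      rw [← Subgroup.map_subtype_commutator] at this
      obtain ⟨y, hy, hyp⟩ := this
      rwa [show y = ⟨d.p, d.mem_C.2 (Commute.refl _)⟩ from Subtype.ext hyp] at hy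
    have := Subgroup.mem_map_of_mem (QuotientGroup.mk' (d.Z.subgroupOf d.C)) h
    rw [commutator_def, Subgroup.map_commutator] at this
    exact Subgroup.commutator_mono le_top le_top this
  fpf := by
    intro w hw
    obtain ⟨a, ha, rfl⟩ := d.q_surj w
    change d.actH d.p (d.q a ha) = d.q a ha at hw
    rw [d.conj_mem_Z ha] at hw
    rcases d.mem_Z.1 hw with h | h
    · rw [q_one_iff]
      exact d.mem_Z.2 (d.fixE a ha (by
        have := mul_inv_eq_one.1 h
        exact (mul_inv_eq_iff_eq_mul.1 this).symm))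
    · exfalso
      have hpa : d.p * a * d.p⁻¹ = d.z * a := mul_inv_eq_iff_eq_mul.1 h
      have hzp : ∀ x, d.p * (d.z * x) * d.p⁻¹ = d.z * (d.p * x * d.p⁻¹) := fun x => by
        rw [← mul_assoc d.p, ← (d.zc d.p).eq]; group
      have h3 : d.p * (d.p * (d.p * a * d.p⁻¹) * d.p⁻¹) * d.p⁻¹ = a := by
        rw [show d.p * (d.p * (d.p * a * d.p⁻¹) * d.p⁻¹) * d.p⁻¹ = d.p ^ 3 * a * (d.p ^ 3)⁻¹ by
          simp only [pow_succ, pow_zero, one_mul, mul_inv_rev, mul_assoc], d.p3]
        simp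
      rw [hpa, hzp, hpa, ← mul_assoc d.z d.z, d.zz, one_mul, hpa] at h3
      exact d.zne (mul_eq_right.1 h3)
  sq := by
    intro w
    obtain ⟨a, ha, rfl⟩ := d.q_surj w
    rw [← q_mul, q_one_iff]
    exact d.mem_Z.2 (d.sqE a ha)
  card := by
    have h := Subgroup.card_eq_card_quotient_mul_card_subgroup (d.Z.subgroupOf d.E)
    rw [Nat.card_congr (Subgroup.subgroupOfEquivOfLe d.Z_le_E).toEquiv, d.card_Z, d.cardE] at h
    show Nat.card (↥d.E ⧸ d.Z.subgroupOf d.E) = _
    omega

end Setup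

end CfsgLib.J4Type67
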