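import Cfsg.Agent.J4Type67.Data
import Cfsg.Agent.Mathieu.FusionM22
import Cfsg.Agent.M22Cover.Model
import Mathlib.GroupTheory.Sylow

/-!
The elementary abelian subgroups of order sixteen of `M22`, and certificates about their
normalisers.
-/

set_option autoImplicit false
set_option maxRecDepth 100000

namespace CfsgLib.J4Type67

open Cfsg CfsgLib.Golay CfsgLib.Mathieu CfsgLib.Mathieu.Code
open scoped Pointwise

attribute [local irreducible] enc

/-- The abstract group `M22`. -/
abbrev M := ↥Cfsg.Spor.M22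

/-- The code of an element of `M22`. -/
def cm (m : M) : ℕ := code (m : Equiv.Perm GolayPt)

theorem cm_injective : Function.Injective cm := fun _ _ h => Subtype.ext (code_injective h)

theorem cm_mul (a b : M) : cm (a * b) = cmpC (cm a) (cm b) := code_mul _ _

theorem cm_one : cm 1 = idC := code_one

theorem cm_conj (g a : M) : cm (g * a * g⁻¹) = cmpC (cmpC (cm g) (cm a)) (cm g⁻¹) := by
  rw [cm_mul, cm_mul]

/-- The pair is a pair of codes of an element of `M22` and of its inverse. -/
def elOK (p : ℕ × ℕ) : Bool :=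
  if h : okPair p.1 p.2 = true then inM22 (permOf p.1 p.2 h) else false

open Classical in
/-- The element of `M22` with the given codes. -/
noncomputable def el (p : ℕ × ℕ) : M :=
  if h : ∃ m : M, cm m = p.1 ∧ cm m⁻¹ = p.2 then Classical.choose h else 1

theorem el_spec {p : ℕ × ℕ} (h : elOK p = true) : cm (el p) = p.1 ∧ cm (el p)⁻¹ = p.2 := by
  have he : ∃ m : M, cm m = p.1 ∧ cm m⁻¹ = p.2 := by
    unfold elOK at h
    split at h
    · next hok => exact ⟨⟨_, inM22_mem h⟩, code_permOf _ _ hok⟩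
    · exact absurd h Bool.false_ne_true
  rw [el, dif_pos he]
  exact Classical.choose_spec he

theorem cm_conj_el {p q : ℕ × ℕ} (hp : elOK p = true) (hq : elOK q = true) :
    cm (el p * el q * (el p)⁻¹) = cmpC (cmpC p.1 q.1) p.2 := by
  rw [cm_conj, (el_spec hp).1, (el_spec hp).2, (el_spec hq).1]

theorem eq_el {p : ℕ × ℕ} (h : elOK p = true) {m : M} (hm : cm m = p.1) : m = el p :=
  cm_injective (hm.trans (el_spec h).1.symm)

/-- The code of the product of a word. -/
def wordC (L : List (ℕ × ℕ)) (w : List ℕ) : ℕ :=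
  w.foldr (fun k acc => cmpC (L.getD k (idC, idC)).1 acc) idC

theorem elOK_id : elOK (idC, idC) = true := by decide +kernel

theorem cm_word {L : List (ℕ × ℕ)} (hL : L.all elOK = true) (w : List ℕ) :
    cm (w.map fun k => el (L.getD k (idC, idC))).prod = wordC L w := by
  induction w with
  | nil => rw [List.map_nil, List.prod_nil, cm_one, wordC, List.foldr_nil]
  | cons k w ih =>
    rw [List.map_cons, List.prod_cons, cm_mul, ih]
    have h : elOK (L.getD k (idC, idC)) = true := by
      rcases lt_or_ge k L.length with hk | hk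
      · rw [List.getD_eq_getElem _ _ hk]; exact List.all_eq_true.1 hL _ (List.getElem_mem hk)
      · rw [List.getD_eq_default _ _ hk]; exact elOK_id
    rw [(el_spec h).1, wordC, wordC, List.foldr_cons]

theorem el_id : el (idC, idC) = 1 := (eq_el elOK_id cm_one).symm

theorem word_mem {L : List (ℕ × ℕ)} {K : Subgroup M} (h : ∀ p ∈ L, el p ∈ K) (w : List ℕ) :
    (w.map fun k => el (L.getD k (idC, idC))).prod ∈ K := by
  refine K.list_prod_mem ?_
  intro x hx
  obtain ⟨k, -, rfl⟩ := List.mem_map.1 hx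
  rcases lt_or_ge k L.length with hk | hk
  · rw [List.getD_eq_getElem _ _ hk]; exact h _ (List.getElem_mem hk)
  · rw [List.getD_eq_default _ _ hk, el_id]; exact one_mem _

/-- The subgroup of `M22` with the given series. -/
def sub (pc : List (ℕ × ℕ)) : Subgroup M := (grpOf pc).subgroupOf Cfsg.Spor.M22

theorem mem_sub {pc : List (ℕ × ℕ)} (h : pcOK pc = true) {m : M} :
    m ∈ sub pc ↔ cm m ∈ spanR pc := (spanSpec pc h).mem_iff _

theorem grpOf_le {pc : List (ℕ × ℕ)} (h : pc.all elOK = true) : grpOf pc ≤ Cfsg.Spor.M22 := by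
  rw [grpOf, Subgroup.closure_le]
  intro g hg
  obtain ⟨p, hp, hpg⟩ := List.mem_map.1 hg
  rw [code_injective (hpg.symm.trans (el_spec (List.all_eq_true.1 h p hp)).1.symm)]
  exact (el p).2

theorem card_sub {pc : List (ℕ × ℕ)} (h : pcOK pc = true) (h' : pc.all elOK = true) :
    Nat.card (sub pc) = 2 ^ pc.length := by
  rw [sub, Nat.card_congr (Subgroup.subgroupOfEquivOfLe (grpOf_le h')).toEquiv]
  exact (spanSpec pc h).card

theorem el_mem_sub {pc : List (ℕ × ℕ)} (h : pcOK pc = true) {p : ℕ × ℕ} (hp : elOK p = true)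
    (hm : (spanR pc).contains p.1 = true) : el p ∈ sub pc := by
  rw [mem_sub h, (el_spec hp).1]
  simpa using hm

/-- The conjugate of a subgroup by an element. -/
abbrev conjS {G : Type*} [Group G] (g : G) (A : Subgroup G) : Subgroup G :=
  A.map (MulAut.conj g).toMonoidHom

theorem mem_conjS {G : Type*} [Group G] {g : G} {A : Subgroup G} {x : G} :
    x ∈ conjS g A ↔ g⁻¹ * x * g ∈ A := by
  constructor
  · rintro ⟨y, hy, rfl⟩
    simpa [mul_assoc] using hy
  · exact fun h => ⟨_, h, by simp [mul_assoc]⟩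

theorem card_conjS {G : Type*} [Group G] (g : G) (A : Subgroup G) :
    Nat.card (conjS g A) = Nat.card A :=
  Subgroup.card_map_of_injective (MulAut.conj g).injective

/-- The first elementary abelian subgroup of order sixteen. -/
def hex : Subgroup M := sub hexBasis

/-- The second elementary abelian subgroup of order sixteen. -/
def duad : Subgroup M := sub duadBasis

/-- A Sylow 2-subgroup. -/
def syl : Subgroup M := sub certM22.pc

theorem basis_ok : pcOK hexBasis = true ∧ hexBasis.all elOK = true ∧ hexBasis.length = 4 ∧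
    pcOK duadBasis = true ∧ duadBasis.all elOK = true ∧ duadBasis.length = 4 ∧
    pcOK certM22.pc = true ∧ certM22.pc.all elOK = true ∧ certM22.pc.length = 7 ∧
    (spanR hexBasis).all (fun x => cmpC x x == idC) = true ∧
    (spanR duadBasis).all (fun x => cmpC x x == idC) = true := by
  decide +kernel

theorem card_hex : Nat.card hex = 16 := by
  obtain ⟨h1, h2, h3, -⟩ := basis_ok
  rw [hex, card_sub h1 h2, h3]; norm_num

theorem card_duad : Nat.card duad = 16 := by
  obtain ⟨-, -, -, h1, h2, h3, -⟩ := basis_ok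
  rw [duad, card_sub h1 h2, h3]; norm_num

theorem card_syl : Nat.card syl = 128 := by
  obtain ⟨-, -, -, -, -, -, h1, h2, h3, -⟩ := basis_ok
  rw [syl, card_sub h1 h2, h3]; norm_num

theorem sq_hex : ∀ a ∈ hex, a * a = 1 := by
  obtain ⟨h1, -, -, -, -, -, -, -, -, h2, -⟩ := basis_ok
  intro a ha
  refine cm_injective ?_
  rw [cm_mul, cm_one]
  exact beq_iff_eq.1 (List.all_eq_true.1 h2 _ ((mem_sub h1).1 ha))

theorem sq_duad : ∀ a ∈ duad, a * a = 1 := by
  obtain ⟨-, -, -, h1, -, -, -, -, -, -, h2⟩ := basis_ok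
  intro a ha
  refine cm_injective ?_
  rw [cm_mul, cm_one]
  exact beq_iff_eq.1 (List.all_eq_true.1 h2 _ ((mem_sub h1).1 ha))

/-! ### Elementary subgroups in the Sylow subgroup -/

/-- The codes of the involutions of the Sylow subgroup. -/
def invList : List ℕ := (spanR certM22.pc).filter fun x => x != idC && cmpC x x == idC

/-- Two codes commute. -/
def commC (a b : ℕ) : Bool := cmpC a b == cmpC b a

/-- Every increasing independent commuting quadruple lies in exactly one of the two subgroups. -/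
def quadCheck (I H D : List ℕ) : Bool :=
  I.all fun a => (I.filter fun b => Nat.blt a b && commC a b).all fun b =>
    ((I.filter fun b => Nat.blt a b && commC a b).filter fun c =>
      Nat.blt b c && commC b c && c != cmpC a b).all fun c =>
      (((I.filter fun b => Nat.blt a b && commC a b).filter fun c =>
        Nat.blt b c && commC b c && c != cmpC a b).filter fun d =>
        Nat.blt c d && commC c d && d != cmpC a c && d != cmpC b c && d != cmpC (cmpC a b) c).all
          fun d =>
        (H.contains a && H.contains b && H.contains c && H.contains d &&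
          !(D.contains a && D.contains b && D.contains c)) ||
        (D.contains a && D.contains b && D.contains c && D.contains d &&
          !(H.contains a && H.contains b && H.contains c))

theorem quad_ok : quadCheck invList (spanR hexBasis) (spanR duadBasis) = true := by
  decide +kernel

theorem comm_of_sq {G : Type*} [Group G] {A : Subgroup G} (hA : ∀ a ∈ A, a * a = 1) {a b : G}
    (ha : a ∈ A) (hb : b ∈ A) : a * b = b * a := by
  have h : (a * b)⁻¹ = a * b := inv_eq_of_mul_eq_one_right (hA _ (mul_mem ha hb))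
  rwa [mul_inv_rev, inv_eq_of_mul_eq_one_right (hA _ hb), inv_eq_of_mul_eq_one_right (hA _ ha),
    eq_comm] at h

theorem elem_in_syl {A : Subgroup M} (hA : ∀ a ∈ A, a * a = 1) (hc : 16 ≤ Nat.card A)
    (hS : A ≤ syl) : A = hex ∨ A = duad := by
  obtain ⟨hH, -, -, hD, -, -, hS0, -, -, -, -⟩ := basis_ok
  classical
  have hmin : ∀ F : Finset M, F.card < Nat.card A →
      ∃ a ∈ A, a ∉ F ∧ ∀ x ∈ A, x ∉ F → cm a ≤ cm x := by
    intro F hF
    have : Fintype M := Fintype.ofFinite _
    let U : Finset M := Finset.univ.filter fun x => x ∈ A ∧ x ∉ F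
    have hU : U.Nonempty := by
      by_contra h
      have hsub : (A : Set M) ⊆ (F : Set M) := fun x hx => by
        by_contra hxF
        exact h ⟨x, by simp [U]; exact ⟨hx, hxF⟩⟩
      have := Set.ncard_le_ncard hsub F.finite_toSet
      rw [Set.ncard_coe_finset, ← Nat.card_coe_set_eq] at this
      exact absurd this (not_le.2 hF)
    obtain ⟨a, ha, hmin⟩ := Finset.exists_min_image U cm hU
    simp only [U, Finset.mem_filter, Finset.mem_univ, true_and] at ha hmin
    exact ⟨a, ha.1, ha.2, fun x hx hxF => hmin x ⟨hx, hxF⟩⟩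
  have hcm : ∀ {x y : M}, x ∈ A → y ∈ A → commC (cm x) (cm y) = true := fun hx hy => by
    simp only [commC, beq_iff_eq, ← cm_mul, comm_of_sq hA hx hy]
  have hI : ∀ {x : M}, x ∈ A → x ≠ 1 → cm x ∈ invList := fun {x} hx h1 => by
    simp only [invList, List.mem_filter, Bool.and_eq_true, bne_iff_ne, beq_iff_eq, ne_eq]
    refine ⟨(mem_sub hS0).1 (hS hx), fun h => h1 (cm_injective (h.trans cm_one.symm)), ?_⟩
    rw [← cm_mul, hA x hx, cm_one]
  have hlt : ∀ {x y : M}, cm x ≤ cm y → y ≠ x → Nat.blt (cm x) (cm y) = true := fun h hne => by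
    rw [Nat.blt, Nat.ble_eq]
    exact lt_of_le_of_ne h fun h' => hne (cm_injective h'.symm)
  obtain ⟨a, ha, ha1, hamin⟩ := hmin {1} (by rw [Finset.card_singleton]; omega)
  obtain ⟨b, hb, hb1, hbmin⟩ := hmin {1, a} (lt_of_le_of_lt Finset.card_le_two (by omega))
  obtain ⟨c, hc', hc1, hcmin⟩ := hmin {1, a, b, a * b}
    (lt_of_le_of_lt Finset.card_le_four (by omega))
  simp only [Finset.mem_insert, Finset.mem_singleton, not_or] at ha1 hb1 hc1 hamin hbmin hcmin
  let F : Finset M := {1, a, b, a * b, c, a * c, b * c, a * b * c}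
  have hq := quad_ok
  simp only [quadCheck, List.all_eq_true, List.mem_filter, Bool.and_eq_true, Bool.or_eq_true,
    Bool.not_eq_true', Bool.and_eq_false_iff, bne_iff_ne, ne_eq] at hq
  have key : ∀ e ∈ A, e ∉ F →
      ((a ∈ hex ∧ b ∈ hex ∧ c ∈ hex ∧ e ∈ hex) ∧ ¬(a ∈ duad ∧ b ∈ duad ∧ c ∈ duad)) ∨
      ((a ∈ duad ∧ b ∈ duad ∧ c ∈ duad ∧ e ∈ duad) ∧ ¬(a ∈ hex ∧ b ∈ hex ∧ c ∈ hex)) := by
    intro e he heF
    simp only [F, Finset.mem_insert, Finset.mem_singleton, not_or] at heF
    obtain ⟨e1, ea, eb, eab, ec, eac, ebc, eabc⟩ := heF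
    have hbF : Nat.blt (cm a) (cm b) = true := hlt (hamin b hb hb1.1) hb1.2
    have nc : ∀ {x y w : M}, w ≠ x * y → ¬ cm w = cmpC (cm x) (cm y) := fun {x y w} hne h =>
      hne (cm_injective (h.trans (cm_mul x y).symm))
    have fa : ∀ {w : M}, w ∈ A → w ≠ 1 → w ≠ a → Nat.blt (cm a) (cm w) = true :=
      fun hw w1 wa => hlt (hamin _ hw w1) wa
    have fb : ∀ {w : M}, w ∈ A → w ≠ 1 → w ≠ a → w ≠ b → Nat.blt (cm b) (cm w) = true :=
      fun hw w1 wa wb => hlt (hbmin _ hw ⟨w1, wa⟩) wb
    have fc : Nat.blt (cm c) (cm e) = true := hlt (hcmin e he ⟨e1, ea, eb, eab⟩) ec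
    have eabc' : ¬ cm e = cmpC (cmpC (cm a) (cm b)) (cm c) := fun h =>
      eabc (cm_injective (h.trans (by rw [cm_mul, cm_mul])))
    have := hq (cm a) (hI ha ha1) (cm b) ?_ (cm c) ?_ (cm e) ?_
    rotate_left
    · exact ⟨hI hb hb1.1, fa hb hb1.1 hb1.2, hcm ha hb⟩
    · exact ⟨⟨hI hc' hc1.1, fa hc' hc1.1 hc1.2.1, hcm ha hc'⟩,
        ⟨fb hc' hc1.1 hc1.2.1 hc1.2.2.1, hcm hb hc'⟩, nc hc1.2.2.2⟩
    · exact ⟨⟨⟨hI he e1, fa he e1 ea, hcm ha he⟩, ⟨fb he e1 ea eb, hcm hb he⟩, nc eab⟩,
        ⟨⟨⟨fc, hcm hc' he⟩, nc eac⟩, nc ebc⟩, eabc'⟩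
    simp only [List.contains_eq_mem, decide_eq_true_eq, decide_eq_false_iff_not, ← mem_sub hH,
      ← mem_sub hD] at this
    rcases this with h | h
    · exact Or.inl ⟨⟨h.1.1.1.1, h.1.1.1.2, h.1.1.2, h.1.2⟩, by
        rcases h.2 with (h' | h') | h' <;> exact fun hh => h' (by first | exact hh.1 | exact hh.2.1 | exact hh.2.2)⟩
    · exact Or.inr ⟨⟨h.1.1.1.1, h.1.1.1.2, h.1.1.2, h.1.2⟩, by
        rcases h.2 with (h' | h') | h' <;> exact fun hh => h' (by first | exact hh.1 | exact hh.2.1 | exact hh.2.2)⟩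
  obtain ⟨e₀, he₀, he₀F, -⟩ := hmin F (by
    refine lt_of_le_of_lt ((Finset.card_insert_le _ _).trans ?_) (Nat.lt_of_lt_of_le (by norm_num : 8 < 16) hc)
    refine Nat.succ_le_succ ((Finset.card_insert_le _ _).trans ?_)
    exact Nat.succ_le_succ ((Finset.card_insert_le _ _).trans
      (Nat.succ_le_succ ((Finset.card_insert_le _ _).trans
        (Nat.succ_le_succ Finset.card_le_four)))))
  have fin : ∀ X : Subgroup M, Nat.card X = 16 → a ∈ X → b ∈ X → c ∈ X →
      (∀ e ∈ A, e ∉ F → e ∈ X) → A = X := by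
    intro X hX haX hbX hcX hrest
    refine Subgroup.eq_of_le_of_card_ge (fun x hx => ?_) (by rw [hX]; exact hc)
    by_cases hxF : x ∈ F
    · simp only [F, Finset.mem_insert, Finset.mem_singleton] at hxF
      rcases hxF with rfl | rfl | rfl | rfl | rfl | rfl | rfl | rfl
      exacts [one_mem _, haX, hbX, mul_mem haX hbX, hcX, mul_mem haX hcX, mul_mem hbX hcX,
        mul_mem (mul_mem haX hbX) hcX]
    · exact hrest x hx hxF
  rcases key e₀ he₀ he₀F with ⟨⟨ha', hb', hc'', -⟩, hn⟩ | ⟨⟨ha', hb', hc'', -⟩, hn⟩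
  · refine Or.inl (fin hex card_hex ha' hb' hc'' fun e he heF => ?_)
    rcases key e he heF with h | h
    · exact h.1.2.2.2
    · exact absurd ⟨h.1.1, h.1.2.1, h.1.2.2.1⟩ hn
  · refine Or.inr (fin duad card_duad ha' hb' hc'' fun e he heF => ?_)
    rcases key e he heF with h | h
    · exact absurd ⟨h.1.1, h.1.2.1, h.1.2.2.1⟩ hn
    · exact h.1.2.2.2

/-- An elementary abelian 2-subgroup of order at least sixteen inside a given Sylow 2-subgroup
is one of two specified conjugates. -/
theorem elem_in_sylow (S : Sylow 2 M) : ∃ g : M,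
    conjS g hex ≤ (S : Subgroup M) ∧
    ∀ A : Subgroup M, (∀ a ∈ A, a * a = 1) → 16 ≤ Nat.card A → A ≤ (S : Subgroup M) →
      A = conjS g hex ∨ A = conjS g duad := by
  have hf : (443520 : ℕ).factorization 2 = 7 := by
    have h2 : (443520 : ℕ) = 2 ^ 7 * 3465 := by norm_num
    rw [h2, Nat.factorization_mul (by norm_num) (by norm_num), Nat.Prime.factorization_pow Nat.prime_two]
    simp [Nat.factorization_eq_zero_of_not_dvd (by norm_num : ¬(2 ∣ 3465))]
  let S₀ : Sylow 2 M := Sylow.ofCard syl (by rw [card_syl, card_M22, hf]; norm_num)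
  obtain ⟨g, hg⟩ := MulAction.exists_smul_eq M S₀ S
  have hS : (S : Subgroup M) = conjS g syl := by
    rw [← hg, Sylow.coe_subgroup_smul]
    rfl
  have hex_le : hex ≤ syl := by
    intro x hx
    obtain ⟨h1, -, -, -, -, -, h7, -, -, -, -⟩ := basis_ok
    have h : (spanR hexBasis).all (fun x => (spanR certM22.pc).contains x) = true := by
      decide +kernel
    rw [syl, mem_sub h7]
    simpa using List.all_eq_true.1 h _ ((mem_sub h1).1 hx)
  refine ⟨g, hS ▸ Subgroup.map_mono hex_le, fun A hA hc hAS => ?_⟩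
  have hB : conjS g⁻¹ A ≤ syl := by
    intro x hx
    rw [mem_conjS, inv_inv] at hx
    have := hAS hx
    rw [hS, mem_conjS] at this
    simpa [mul_assoc] using this
  have key := elem_in_syl (A := conjS g⁻¹ A) (fun x hx => by
    rw [mem_conjS, inv_inv] at hx
    have h := hA _ hx
    have h' : g * (x * x) * g⁻¹ = 1 := by simpa [mul_assoc] using h
    exact conj_eq_one_iff.1 h') (by rw [card_conjS]; exact hc) hB
  have back : ∀ B : Subgroup M, conjS g⁻¹ A = B → A = conjS g B := by
    intro B h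
    ext x
    rw [mem_conjS, ← h, mem_conjS]
    simp [mul_assoc]
  exact key.imp (back _) (back _)

/-! ### Generation and normalisers -/

/-- The letters of a subgroup and its conjugate. -/
def letters (b : List (ℕ × ℕ)) (g : ℕ × ℕ) : List (ℕ × ℕ) :=
  b ++ b.map fun p => (cmpC (cmpC g.1 p.1) g.2, cmpC (cmpC g.1 p.2) g.2)

/-- The words give generators of `M22`. -/
def genCheck (b : List (ℕ × ℕ)) (g : ℕ × ℕ) (ws : List (List ℕ)) : Bool :=
  elOK g && (letters b g).all elOK &&
    (ws.map fun w => wordC (letters b g) w) == M22Cover.gens.map Prod.fst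

theorem sup_conj_eq_top {b : List (ℕ × ℕ)} {g : ℕ × ℕ} {ws : List (List ℕ)}
    (hb : pcOK b = true) (hb' : b.all elOK = true) (h : genCheck b g ws = true) :
    sub b ⊔ conjS (el g) (sub b) = ⊤ := by
  simp only [genCheck, Bool.and_eq_true, beq_iff_eq] at h
  obtain ⟨⟨hg, hl⟩, hw⟩ := h
  set K := sub b ⊔ conjS (el g) (sub b)
  have hbm : ∀ p ∈ b, el p ∈ sub b := fun p hp =>
    Subgroup.subset_closure (show code (el p : Equiv.Perm GolayPt) ∈ b.map Prod.fst from
      List.mem_map.2 ⟨p, hp, (el_spec (List.all_eq_true.1 hb' p hp)).1.symm⟩)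
  have hmem : ∀ p ∈ letters b g, el p ∈ K := by
    intro p hp
    have hok := List.all_eq_true.1 hl p hp
    rcases List.mem_append.1 hp with hp | hp
    · exact Subgroup.mem_sup_left (hbm p hp)
    · obtain ⟨q, hq, rfl⟩ := List.mem_map.1 hp
      refine Subgroup.mem_sup_right ⟨el q, hbm q hq, eq_el hok ?_⟩
      exact cm_conj_el hg (List.all_eq_true.1 hb' q hq)
  rw [eq_top_iff, ← M22Cover.genM_top, M22Cover.initSeg, Subgroup.closure_le]
  rintro z ⟨x, hx, rfl⟩
  have hlen : M22Cover.gens.length = 6 := M22Cover.gens_ok.2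
  have hwl : x < ws.length := by
    have := congrArg List.length hw
    simp only [List.length_map] at this
    omega
  have hxv : wordC (letters b g) ws[x] = (M22Cover.gens.getD x (idC, idC)).1 := by
    rw [List.getD_eq_getElem _ _ (hlen.symm ▸ hx)]
    have := List.getElem_of_eq hw (i := x) (by simpa using hwl)
    simpa using this
  have : M22Cover.genM x = (ws[x].map fun k => el ((letters b g).getD k (idC, idC))).prod := by
    refine cm_injective ?_
    rw [cm_word hl, hxv]
    exact Multiplier.code_permAt M22Cover.gens_ok.1 x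
  rw [this]
  exact word_mem hmem _

theorem hex_gen : ∃ g : M, hex ⊔ conjS g hex = ⊤ :=
  ⟨el hexMove, sup_conj_eq_top basis_ok.1 basis_ok.2.1 (ws := hexWords) (by decide +kernel)⟩

theorem duad_gen : ∃ g : M, duad ⊔ conjS g duad = ⊤ :=
  ⟨el duadMove, sup_conj_eq_top basis_ok.2.2.2.1 basis_ok.2.2.2.2.1 (ws := duadWords)
    (by decide +kernel)⟩

/-- Conjugation by the element maps the span into itself. -/
def normCheck' (b : List (ℕ × ℕ)) (n : ℕ × ℕ) : Bool :=
  elOK n && (spanR b).all fun x => (spanR b).contains (cmpC (cmpC n.1 x) n.2)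

theorem conjS_eq {b : List (ℕ × ℕ)} (hb : pcOK b = true) {n : ℕ × ℕ} (h : normCheck' b n = true) :
    conjS (el n) (sub b) = sub b := by
  simp only [normCheck', Bool.and_eq_true, List.all_eq_true, List.contains_eq_mem,
    decide_eq_true_eq] at h
  refine Subgroup.eq_of_le_of_card_ge ?_ (card_conjS _ _).ge
  rintro _ ⟨x, hx, rfl⟩
  show el n * x * (el n)⁻¹ ∈ sub b
  rw [mem_sub hb, cm_conj, (el_spec h.1).1, (el_spec h.1).2]
  exact h.2 _ ((mem_sub hb).1 hx)

theorem hex_normal_data : elOK hexFive = true ∧ normCheck' hexBasis hexFive = true ∧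
    hexNs.all (normCheck' hexBasis) = true ∧ hexTrans.all (normCheck' hexBasis) = true ∧
    hexFives.all elOK = true ∧ hexThrees.all elOK = true ∧
    hexFives.map Prod.fst = hexNs.map (fun n => cmpC (cmpC n.1 hexFive.1) n.2) ∧
    (hexThreeWords.map fun w => wordC hexFives w) = hexThrees.map Prod.fst ∧
    hexFive.1 != idC ∧ wordC [hexFive] [0, 0, 0, 0, 0] = idC ∧
    ((spanR hexBasis).all fun a => a == idC ||
      (spanR hexBasis).all fun b => b == idC ||
        hexTrans.any fun n => hexTrans.any fun m =>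
          cmpC (cmpC n.1 (hexBasis.getD 0 (idC, idC)).1) n.2 == a &&
          cmpC (cmpC m.1 (hexBasis.getD 0 (idC, idC)).1) m.2 == b) := by
  decide +kernel

theorem el_pow_five {p : ℕ × ℕ} (hp : elOK p = true) (h : wordC [p] [0, 0, 0, 0, 0] = idC) :
    el p ^ 5 = 1 := by
  refine cm_injective ?_
  rw [cm_one, ← h, ← cm_word (L := [p]) (by simp [hp])]
  simp [pow_succ, mul_assoc]

/-- The transitivity of the normaliser on the nontrivial elements of the first subgroup. -/
theorem hex_trans {a b : M} (ha : a ∈ hex) (ha1 : a ≠ 1) (hb : b ∈ hex) (hb1 : b ≠ 1) :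
    ∃ n : M, conjS n hex = hex ∧ n * a * n⁻¹ = b := by
  obtain ⟨-, -, -, h4, -, -, -, -, -, -, h11⟩ := hex_normal_data
  have hH := basis_ok.1
  have hne : ∀ {x : M}, x ≠ 1 → cm x ≠ idC := fun h h' => h (cm_injective (h'.trans cm_one.symm))
  simp only [List.all_eq_true, List.any_eq_true, Bool.or_eq_true, Bool.and_eq_true,
    beq_iff_eq] at h11
  obtain h' | h' := h11 _ ((mem_sub hH).1 ha)
  · exact absurd h' (hne ha1)
  obtain h'' | ⟨n, hn, m, hm, e1, e2⟩ := h' _ ((mem_sub hH).1 hb)
  · exact absurd h'' (hne hb1)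
  have hb0 : elOK (hexBasis.getD 0 (idC, idC)) = true := by decide +kernel
  have hnc := List.all_eq_true.1 h4 n hn
  have hmc := List.all_eq_true.1 h4 m hm
  have hno : elOK n = true := by simp only [normCheck', Bool.and_eq_true] at hnc; exact hnc.1
  have hmo : elOK m = true := by simp only [normCheck', Bool.and_eq_true] at hmc; exact hmc.1
  rw [← cm_conj_el hno hb0] at e1
  rw [← cm_conj_el hmo hb0] at e2
  refine ⟨el m * (el n)⁻¹, ?_, ?_⟩
  · ext x
    have hn' := conjS_eq hH hnc
    have hm' := conjS_eq hH hmc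
    rw [mem_conjS, show (el m * (el n)⁻¹)⁻¹ * x * (el m * (el n)⁻¹) =
      el n * ((el m)⁻¹ * x * el m) * (el n)⁻¹ by group]
    constructor
    · intro h
      rw [show sub hexBasis = hex from rfl] at hn' hm'
      have h2 : (el m)⁻¹ * x * el m ∈ hex := by
        rw [← hn', mem_conjS] at h
        simpa [mul_assoc] using h
      rw [← hm', mem_conjS]; exact h2
    · intro h
      rw [show sub hexBasis = hex from rfl] at hn' hm'
      rw [← hm', mem_conjS] at h
      rw [← hn']
      exact ⟨_, h, rfl⟩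
  · rw [← cm_injective e1, ← cm_injective e2]
    group

/-- A subgroup of the normaliser of the first subgroup generated by conjugates of an element of
order five and containing a Sylow 3-subgroup. -/
theorem hex_five : ∃ u x y : M, ∃ N : Set M, conjS u hex = hex ∧ orderOf u = 5 ∧ u = el hexFive ∧
    (∀ n ∈ N, conjS n hex = hex) ∧ x ∈ Subgroup.closure ((fun n => n * u * n⁻¹) '' N) ∧
    y ∈ Subgroup.closure ((fun n => n * u * n⁻¹) '' N) ∧ x * y = y * x ∧
    orderOf x = 3 ∧ orderOf y = 3 ∧ y ≠ x ∧ y ≠ x * x := by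
  obtain ⟨h1, h2, h3, -, h5, h6, h7, h8, h9, h10, -⟩ := hex_normal_data
  have hmem : ∀ p ∈ hexFives, el p ∈ Subgroup.closure
      ((fun n => n * el hexFive * n⁻¹) '' {n | ∃ q ∈ hexNs, n = el q}) := by
    intro p hp
    have hp1 : p.1 ∈ hexFives.map Prod.fst := List.mem_map_of_mem hp
    rw [h7] at hp1
    obtain ⟨q, hq, hqp⟩ := List.mem_map.1 hp1
    have hqc := List.all_eq_true.1 h3 q hq
    simp only [normCheck', Bool.and_eq_true] at hqc
    refine Subgroup.subset_closure ⟨el q, ⟨q, hq, rfl⟩, eq_el (List.all_eq_true.1 h5 p hp) ?_⟩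
    rw [cm_conj_el hqc.1 h1]; exact hqp
  have key : ∀ i : ℕ, i < 2 →
      el (hexThrees.getD i (idC, idC)) ∈ Subgroup.closure
        ((fun n => n * el hexFive * n⁻¹) '' {n | ∃ q ∈ hexNs, n = el q}) := by
    intro i hi
    have hl : hexThrees.length = 2 ∧ hexThreeWords.length = 2 := by decide +kernel
    have := List.getElem_of_eq h8 (i := i) (by simp [hl.2, hi])
    simp only [List.getElem_map] at this
    rw [List.getD_eq_getElem _ _ (hl.1.symm ▸ hi),
      ← eq_el (List.all_eq_true.1 h6 _ (List.getElem_mem _)) ((cm_word h5 _).trans this)]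
    exact word_mem hmem _
  have hthree : elOK (hexThrees.getD 0 (idC, idC)) = true ∧
      elOK (hexThrees.getD 1 (idC, idC)) = true ∧
      (let x := (hexThrees.getD 0 (idC, idC)).1; let y := (hexThrees.getD 1 (idC, idC)).1
       (x != idC && y != idC && cmpC x (cmpC x x) == idC && cmpC y (cmpC y y) == idC &&
        cmpC x y == cmpC y x && y != x && y != cmpC x x) = true) := by decide +kernel
  obtain ⟨hx, hy, hxy⟩ := hthree
  simp only [Bool.and_eq_true, bne_iff_ne, beq_iff_eq, ne_eq] at hxy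
  obtain ⟨⟨⟨⟨⟨⟨x1, y1⟩, x3⟩, y3⟩, c⟩, d1⟩, d2⟩ := hxy
  have ord3 : ∀ p, elOK p = true → p.1 ≠ idC → cmpC p.1 (cmpC p.1 p.1) = idC →
      orderOf (el p) = 3 := by
    intro p hp h1 h3
    haveI : Fact (Nat.Prime 3) := ⟨by norm_num⟩
    refine orderOf_eq_prime (cm_injective ?_) fun h => h1 ?_
    · rw [pow_succ', pow_two, cm_mul, cm_mul, cm_one, (el_spec hp).1, h3]
    · rw [← (el_spec hp).1, h, cm_one]
  refine ⟨el hexFive, el (hexThrees.getD 0 (idC, idC)), el (hexThrees.getD 1 (idC, idC)),
    {n | ∃ q ∈ hexNs, n = el q}, conjS_eq basis_ok.1 h2, ?_, rfl, ?_, key 0 (by norm_num),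
    key 1 (by norm_num), ?_, ord3 _ hx x1 x3, ord3 _ hy y1 y3, ?_, ?_⟩
  · haveI : Fact (Nat.Prime 5) := ⟨by norm_num⟩
    refine orderOf_eq_prime (el_pow_five h1 h10) fun h => ?_
    exact (bne_iff_ne.1 h9) (by rw [← (el_spec h1).1, h, cm_one])
  · rintro _ ⟨q, hq, rfl⟩
    exact conjS_eq basis_ok.1 (List.all_eq_true.1 h3 q hq)
  · exact cm_injective (by rw [cm_mul, cm_mul, (el_spec hx).1, (el_spec hy).1, c])
  · exact fun h => d1 (by rw [← (el_spec hx).1, ← (el_spec hy).1, h])
  · exact fun h => d2 (by rw [← (el_spec hx).1, ← (el_spec hy).1, h, cm_mul])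

theorem duad_data : elOK duadFive = true ∧ normCheck' duadBasis duadFive = true ∧
    normCheck' duadBasis duadFour = true ∧ elOK fiveMove = true ∧
    cmpC (cmpC fiveMove.1 hexFive.1) fiveMove.2 = duadFive.1 ∧
    cmpC (cmpC duadFour.1 duadFive.1) duadFour.2 = cmpC duadFive.1 duadFive.1 ∧
    wordC [duadFour] [0, 0, 0, 0] = idC := by
  decide +kernel

/-- The elements in the normaliser of the second subgroup. -/
theorem duad_five : ∀ u : M, u = el hexFive → ∃ m n : M,
    conjS (m * u * m⁻¹) duad = duad ∧ conjS n duad = duad ∧ n ^ 4 = 1 ∧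
    n * (m * u * m⁻¹) * n⁻¹ = m * u * m⁻¹ * (m * u * m⁻¹) := by
  rintro u rfl
  obtain ⟨h1, h2, h3, h4, h5, h6, h7⟩ := duad_data
  have hn : elOK duadFour = true := by simp only [normCheck', Bool.and_eq_true] at h3; exact h3.1
  have e : el fiveMove * el hexFive * (el fiveMove)⁻¹ = el duadFive :=
    eq_el h1 ((cm_conj_el h4 hex_normal_data.1).trans h5)
  refine ⟨el fiveMove, el duadFour, ?_, conjS_eq basis_ok.2.2.2.1 h3, cm_injective ?_, ?_⟩
  · rw [e]; exact conjS_eq basis_ok.2.2.2.1 h2
  · rw [cm_one, ← h7, ← cm_word (L := [duadFour]) (by simp [hn])]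
    simp [pow_succ, mul_assoc]
  · rw [e]
    exact cm_injective (by rw [cm_conj_el hn h1, h6, cm_mul, (el_spec h1).1])

end CfsgLib.J4Type67
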